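import Mathlib

/-!
# Two-transitive groups with 2-closed point stabilisers: basic facts
-/

set_option autoImplicit false
set_option linter.unusedVariables false
set_option linter.unusedSectionVars false

namespace Cfsg.Agent.H27.SB

open MulAction Subgroup

variable {G : Type*} [Group G] {Ω : Type*} [MulAction G Ω]

/-- 2-elements -/
def El2 (g : G) : Prop := ∃ k : ℕ, g ^ 2 ^ k = 1

theorem El2.one : El2 (1 : G) := ⟨0, one_pow _⟩

theorem El2.of_sq {g : G} (h : g * g = 1) : El2 g := ⟨1, by rw [pow_one, pow_two, h]⟩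

theorem El2.conj {g : G} (h : El2 g) (c : G) : El2 (c * g * c⁻¹) := by
  obtain ⟨k, hk⟩ := h
  exact ⟨k, by rw [conj_pow, hk, mul_one, mul_inv_cancel]⟩

theorem El2.eq_one_of_odd [Finite G] {g : G} (h : El2 g) (ho : Odd (orderOf g)) : g = 1 := by
  obtain ⟨k, hk⟩ := h
  have h1 : orderOf g ∣ 2 ^ k := orderOf_dvd_of_pow_eq_one hk
  have h2 : (orderOf g).Coprime (2 ^ k) := Nat.Coprime.pow_right k (Nat.coprime_two_right.2 ho)
  exact orderOf_eq_one_iff.1 (Nat.Coprime.eq_one_of_dvd h2 h1)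

/-- the subgroup generated by the 2-elements fixing a point -/
def PP (G : Type*) [Group G] {Ω : Type*} [MulAction G Ω] (α : Ω) : Subgroup G :=
  Subgroup.closure {g : G | g • α = α ∧ El2 g}

theorem PP_le_stab (α : Ω) {g : G} (h : g ∈ PP G α) : g • α = α := by
  have : PP G α ≤ stabilizer G α := by
    unfold PP
    rw [closure_le]
    intro x hx
    exact hx.1
  exact this h

theorem mem_PP_of {α : Ω} {g : G} (h1 : g • α = α) (h2 : El2 g) : g ∈ PP G α :=
  Subgroup.subset_closure ⟨h1, h2⟩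

theorem conj_mem_PP {α : Ω} {x : G} (hx : x ∈ PP G α) (g : G) : g * x * g⁻¹ ∈ PP G (g • α) := by
  have : (PP G α).map (MulAut.conj g).toMonoidHom ≤ PP G (g • α) := by
    unfold PP
    rw [MonoidHom.map_closure, closure_le]
    rintro _ ⟨y, hy, rfl⟩
    apply Subgroup.subset_closure
    refine ⟨?_, hy.2.conj g⟩
    simp only [MulEquiv.coe_toMonoidHom, MulAut.conj_apply]
    rw [mul_smul, mul_smul, inv_smul_smul, hy.1]
  exact this ⟨x, hx, by simp⟩

theorem conj_mem_PP_iff {α : Ω} {x : G} (g : G) : g * x * g⁻¹ ∈ PP G (g • α) ↔ x ∈ PP G α := by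
  refine ⟨fun h => ?_, fun h => conj_mem_PP h g⟩
  have := conj_mem_PP h g⁻¹
  rw [inv_smul_smul] at this
  have e : g⁻¹ * (g * x * g⁻¹) * g⁻¹⁻¹ = x := by group
  rwa [e] at this

/-- the central elements of order at most two of `PP G α` -/
def AA (G : Type*) [Group G] {Ω : Type*} [MulAction G Ω] (α : Ω) : Subgroup G where
  carrier := {g | g ∈ PP G α ∧ g * g = 1 ∧ ∀ s ∈ PP G α, s * g = g * s}
  one_mem' := ⟨one_mem _, by simp, by simp⟩
  mul_mem' := by
    rintro a b ⟨ha, ha2, hac⟩ ⟨hb, hb2, hbc⟩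
    refine ⟨mul_mem ha hb, ?_, ?_⟩
    · calc a * b * (a * b) = a * (b * a) * b := by group
        _ = a * (a * b) * b := by rw [hac b hb]
        _ = (a * a) * (b * b) := by group
        _ = 1 := by rw [ha2, hb2, mul_one]
    · intro s hs
      calc s * (a * b) = (s * a) * b := by group
        _ = a * (s * b) := by rw [hac s hs]; group
        _ = a * b * s := by rw [hbc s hs]; group
  inv_mem' := by
    rintro a ⟨ha, ha2, hac⟩
    have : a⁻¹ = a := inv_eq_of_mul_eq_one_left ha2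
    rw [this]
    exact ⟨ha, ha2, hac⟩

theorem AA_le_PP (α : Ω) : AA G α ≤ PP G α := fun _ h => h.1

theorem AA_sq {α : Ω} {a : G} (h : a ∈ AA G α) : a * a = 1 := h.2.1

theorem AA_inv {α : Ω} {a : G} (h : a ∈ AA G α) : a⁻¹ = a := inv_eq_of_mul_eq_one_left h.2.1

theorem AA_comm {α : Ω} {a s : G} (h : a ∈ AA G α) (hs : s ∈ PP G α) : s * a = a * s := h.2.2 s hs

theorem conj_mem_AA {α : Ω} {x : G} (hx : x ∈ AA G α) (g : G) : g * x * g⁻¹ ∈ AA G (g • α) := by
  refine ⟨conj_mem_PP hx.1 g, ?_, ?_⟩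
  · calc g * x * g⁻¹ * (g * x * g⁻¹) = g * (x * x) * g⁻¹ := by group
      _ = 1 := by rw [hx.2.1]; group
  · intro s hs
    have h1 : g⁻¹ * s * g ∈ PP G α := by
      have := conj_mem_PP hs g⁻¹
      rwa [inv_smul_smul, inv_inv] at this
    have h2 := hx.2.2 _ h1
    calc s * (g * x * g⁻¹) = g * (g⁻¹ * s * g * x) * g⁻¹ := by group
      _ = g * x * g⁻¹ * s := by rw [h2]; group

/-- the set-up -/
structure Cfg (G : Type*) [Group G] (Ω : Type*) [MulAction G Ω] : Prop where
  closed : ∀ (α : Ω) (g h : G), g • α = α → h • α = α → El2 g → El2 h → El2 (g * h)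
  semi : ∀ (α : Ω) (a : G) (β : Ω), a ∈ AA G α → a ≠ 1 → a • β = β → β = α
  two : ∀ α β γ δ : Ω, α ≠ β → γ ≠ δ → ∃ g : G, g • α = γ ∧ g • β = δ

section

variable (h : Cfg G Ω)
include h

theorem mem_PP {α : Ω} {g : G} : g ∈ PP G α ↔ g • α = α ∧ El2 g := by
  refine ⟨fun hg => ⟨PP_le_stab α hg, ?_⟩, fun hg => mem_PP_of hg.1 hg.2⟩
  let K : Subgroup G :=
    { carrier := {g : G | g • α = α ∧ El2 g}
      one_mem' := ⟨one_smul _ _, El2.one⟩
      mul_mem' := fun {a b} ha hb => ⟨by rw [mul_smul, hb.1, ha.1], h.closed α a b ha.1 hb.1 ha.2 hb.2⟩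
      inv_mem' := fun {a} ha => ⟨by rw [inv_smul_eq_iff, ha.1], by
        obtain ⟨k, hk⟩ := ha.2
        exact ⟨k, by rw [inv_pow, hk, inv_one]⟩⟩ }
  have : PP G α ≤ K := by
    unfold PP
    rw [closure_le]
    exact fun x hx => hx
  exact (this hg).2

theorem conj_AA_eq {α β : Ω} {a g : G} (ha : a ∈ AA G α) (ha1 : a ≠ 1) (hb : (g * a * g⁻¹) • β = β) : β = g • α := by
  have h1 := conj_mem_AA ha g
  have h2 : g * a * g⁻¹ ≠ 1 := by
    intro e
    apply ha1
    have : a = g⁻¹ * (g * a * g⁻¹) * g := by group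
    rw [this, e]; group
  exact h.semi _ _ _ h1 h2 hb

omit h in
/-- conjugation inside a dihedral group -/
theorem dihedral_conj {x y : G} (hx : x * x = 1) (hy : y * y = 1) (j : ℕ) :
    (x * y) ^ j * x * ((x * y) ^ j)⁻¹ = (x * y) ^ (2 * j) * x := by
  have hxi : x⁻¹ = x := inv_eq_of_mul_eq_one_left hx
  have hyi : y⁻¹ = y := inv_eq_of_mul_eq_one_left hy
  have h1 : x * (x * y) * x⁻¹ = (x * y)⁻¹ := by
    rw [mul_inv_rev, hxi, hyi]
    calc x * (x * y) * x = (x * x) * (y * x) := by group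
      _ = y * x := by rw [hx, one_mul]
  have h2 : x * (x * y) ^ j * x⁻¹ = ((x * y) ^ j)⁻¹ := by
    rw [← conj_pow, h1, inv_pow]
  have h3 : x * ((x * y) ^ j)⁻¹ = (x * y) ^ j * x := by
    rw [← h2, ← mul_assoc, ← mul_assoc, hx, one_mul, hxi]
  rw [mul_assoc, h3, ← mul_assoc, two_mul, pow_add]

omit h in
theorem dihedral_inv {x y : G} (hx : x * x = 1) (hy : y * y = 1) (j : ℕ) :
    x * (x * y) ^ j * x = ((x * y) ^ j)⁻¹ := by
  have hxi : x⁻¹ = x := inv_eq_of_mul_eq_one_left hx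
  have hyi : y⁻¹ = y := inv_eq_of_mul_eq_one_left hy
  have h1 : x * (x * y) * x⁻¹ = (x * y)⁻¹ := by
    rw [mul_inv_rev, hxi, hyi]
    calc x * (x * y) * x = (x * x) * (y * x) := by group
      _ = y * x := by rw [hx, one_mul]
  have h2 : x * (x * y) ^ j * x⁻¹ = ((x * y) ^ j)⁻¹ := by
    rw [← conj_pow, h1, inv_pow]
  rwa [hxi] at h2

omit h in
/-- if `(xy)^m = 1` with `m` odd then `x`, `y` are conjugate by a power of `xy` -/
theorem exists_pow_conj {x y : G} (hx : x * x = 1) (hy : y * y = 1) {m : ℕ} (hm : Odd m) {v : G}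
    (hv : (x * y) ^ m = v) : ∃ j : ℕ, (x * y) ^ j * x * ((x * y) ^ j)⁻¹ = v * y := by
  obtain ⟨k, rfl⟩ := hm
  refine ⟨k, ?_⟩
  rw [dihedral_conj hx hy, ← hv, pow_succ]
  have hxi : x⁻¹ = x := inv_eq_of_mul_eq_one_left hx
  have hyi : y⁻¹ = y := inv_eq_of_mul_eq_one_left hy
  calc (x * y) ^ (2 * k) * x = (x * y) ^ (2 * k) * x * (y * y) := by rw [hy, mul_one]
    _ = (x * y) ^ (2 * k) * (x * y) * y := by group

omit h in
theorem pow_comm_of {x y s : G} (h1 : s * x = x * s) (h2 : s * y = y * s) (j : ℕ) :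
    s * (x * y) ^ j = (x * y) ^ j * s :=
  ((show Commute s x from h1).mul_right (show Commute s y from h2)).pow_right j

/-- products of elements of `A_α`, `A_β` have odd order -/
theorem odd_mul [Finite G] {α β : Ω} (hab : α ≠ β) {x y : G} (hx : x ∈ AA G α) (hy : y ∈ AA G β) (hx1 : x ≠ 1)
    (hy1 : y ≠ 1) : Odd (orderOf (x * y)) := by
  by_contra hodd
  rw [Nat.not_odd_iff_even] at hodd
  obtain ⟨k, hk⟩ := hodd
  have hpos : 0 < orderOf (x * y) := orderOf_pos _
  set v := (x * y) ^ k with hv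
  have hvv : v * v = 1 := by rw [hv, ← pow_add, ← hk, pow_orderOf_eq_one]
  have hvi : v⁻¹ = v := inv_eq_of_mul_eq_one_left hvv
  have hv1 : v ≠ 1 := by
    intro e
    have := orderOf_dvd_of_pow_eq_one (hv ▸ e)
    have := Nat.le_of_dvd (by omega) this
    omega
  have hx2 := AA_sq hx
  have hy2 := AA_sq hy
  have hvx : x * v = v * x := by
    have := dihedral_inv hx2 hy2 k
    rw [← hv, hvi] at this
    calc x * v = x * v * (x * x) := by rw [hx2, mul_one]
      _ = (x * v * x) * x := by group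
      _ = v * x := by rw [this]
  have hvxy : v * (x * y) = (x * y) * v := by rw [hv, ← pow_succ, ← pow_succ']
  have hvy : y * v = v * y := by
    have h1 : x * (y * v) = x * (v * y) := by
      calc x * (y * v) = x * y * v := by group
        _ = v * (x * y) := hvxy.symm
        _ = (v * x) * y := by group
        _ = x * (v * y) := by rw [← hvx]; group
    exact mul_left_cancel h1
  have hva : v • α = α := by
    apply h.semi α x _ hx hx1
    rw [← mul_smul, hvx, mul_smul, PP_le_stab α hx.1]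
  have hvb : v • β = β := by
    apply h.semi β y _ hy hy1
    rw [← mul_smul, hvy, mul_smul, PP_le_stab β hy.1]
  rcases Nat.even_or_odd k with hke | hko
  · obtain ⟨j, hj⟩ := hke
    have h1 := dihedral_conj hx2 hy2 j
    rw [two_mul, ← hj, ← hv] at h1
    have h2 : α = (x * y) ^ j • α := by
      apply conj_AA_eq h hx hx1
      rw [h1, mul_smul, PP_le_stab α hx.1, hva]
    have h3 : v * x ∈ AA G α := by
      have := conj_mem_AA hx ((x * y) ^ j)
      rwa [h1, ← h2] at this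
    have h4 : v ∈ AA G α := by
      have := mul_mem h3 hx
      rwa [mul_assoc, hx2, mul_one] at this
    exact hab (h.semi α v β h4 hv1 hvb).symm
  · obtain ⟨j, hj⟩ := exists_pow_conj hx2 hy2 hko hv.symm
    have h2 : β = (x * y) ^ j • α := by
      apply conj_AA_eq h hx hx1
      rw [hj, mul_smul, PP_le_stab β hy.1, hvb]
    have h3 : v * y ∈ AA G β := by
      have := conj_mem_AA hx ((x * y) ^ j)
      rwa [hj, ← h2] at this
    have h4 : v ∈ AA G β := by
      have := mul_mem h3 hy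
      rwa [mul_assoc, hy2, mul_one] at this
    exact hab (h.semi β v α h4 hv1 hva)

/-- elements of `A_α`, `A_β` are conjugate by an element commuting with everything commuting with both -/
theorem exists_conj [Finite G] {α β : Ω} (hab : α ≠ β) {x y : G} (hx : x ∈ AA G α) (hy : y ∈ AA G β) (hx1 : x ≠ 1)
    (hy1 : y ≠ 1) : ∃ c : G, c * x * c⁻¹ = y ∧ c • α = β ∧ ∀ s : G, s * x = x * s → s * y = y * s → s * c = c * s := by
  have ho := odd_mul h hab hx hy hx1 hy1
  obtain ⟨j, hj⟩ := exists_pow_conj (AA_sq hx) (AA_sq hy) ho (pow_orderOf_eq_one _)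
  rw [one_mul] at hj
  refine ⟨(x * y) ^ j, hj, ?_, fun s h1 h2 => pow_comm_of h1 h2 j⟩
  symm
  apply conj_AA_eq h hx hx1
  rw [hj]
  exact PP_le_stab β hy.1

end

end Cfsg.Agent.H27.SB
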