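import Cfsg.Agent.H27.SB0

/-!
# The count of fixed points of an involution
-/

set_option autoImplicit false
set_option linter.unusedVariables false
set_option linter.unusedSectionVars false

namespace Cfsg.Agent.H27.SB

open MulAction Subgroup

variable {G : Type*} [Group G] [Finite G] {Ω : Type*} [MulAction G Ω] [Finite Ω]

/-- number of fixed points -/
noncomputable def nf (G : Type*) [Group G] (Ω : Type*) [MulAction G Ω] (t : G) : ℕ := Nat.card {ω : Ω // t • ω = ω}

theorem nf_conj (c t : G) : nf G Ω (c * t * c⁻¹) = nf G Ω t := by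
  unfold nf
  symm
  apply Nat.card_congr
  refine ⟨fun ω => ⟨c • ω.1, ?_⟩, fun ω => ⟨c⁻¹ • ω.1, ?_⟩, ?_, ?_⟩
  · rw [mul_smul, mul_smul, inv_smul_smul, ω.2]
  · have := ω.2
    rw [mul_smul, mul_smul] at this
    exact eq_inv_smul_iff.2 this
  · intro ω; simp
  · intro ω; simp

section

variable (h : Cfg G Ω)
include h

theorem card_AA (α γ : Ω) : Nat.card (AA G α) = Nat.card (AA G γ) := by
  by_cases hag : α = γ
  · rw [hag]
  · obtain ⟨g, hg, -⟩ := h.two α γ γ α hag (Ne.symm hag)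
    apply Nat.card_congr
    refine ⟨fun x => ⟨g * x.1 * g⁻¹, ?_⟩, fun x => ⟨g⁻¹ * x.1 * g, ?_⟩, ?_, ?_⟩
    · have := conj_mem_AA x.2 g
      rwa [hg] at this
    · have := conj_mem_AA x.2 g⁻¹
      have e : g⁻¹ • γ = α := by rw [← hg, inv_smul_smul]
      rwa [e, inv_inv] at this
    · intro x; apply Subtype.ext; simp only; group
    · intro x; apply Subtype.ext; simp only; group

/-- an involution fixing two points and a point moved by it -/
theorem exists_partner {t : G} (ht : t * t = 1) {α β : Ω} (hab : α ≠ β) (hα : t • α = α) (hβ : t • β = β)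
    {γ : Ω} (hγ : t • γ ≠ γ) {z : G} (hz : z ∈ AA G γ) (hz1 : z ≠ 1) :
    ∃ (a : G) (δ : Ω), a ∈ AA G δ ∧ a ≠ 1 ∧ t • δ = δ ∧ (t * a) • γ = γ := by
  have hti : t⁻¹ = t := inv_eq_of_mul_eq_one_left ht
  have hz2 := AA_sq hz
  have h1 : t * z * t⁻¹ ∈ AA G (t • γ) := conj_mem_AA hz t
  have h2 : t * z * t⁻¹ ≠ 1 := by
    intro e
    apply hz1
    have : z = t⁻¹ * (t * z * t⁻¹) * t := by group
    rw [this, e]; group
  have h3 := odd_mul h (Ne.symm hγ) hz h1 hz1 h2
  set m := orderOf (z * (t * z * t⁻¹)) with hm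
  have h4 : (z * t) ^ (2 * m) = 1 := by
    rw [pow_mul, pow_two]
    have : z * t * (z * t) = z * (t * z * t⁻¹) := by rw [hti]; group
    rw [this, hm, pow_orderOf_eq_one]
  set v := (z * t) ^ m with hv
  have hvv : v * v = 1 := by rw [hv, ← pow_add, ← two_mul, h4]
  have hvi : v⁻¹ = v := inv_eq_of_mul_eq_one_left hvv
  have hvz : z * v = v * z := by
    have := dihedral_inv hz2 ht m
    rw [← hv, hvi] at this
    calc z * v = z * v * (z * z) := by rw [hz2, mul_one]
      _ = (z * v * z) * z := by group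
      _ = v * z := by rw [this]
  have hvzt : v * (z * t) = (z * t) * v := by rw [hv, ← pow_succ, ← pow_succ']
  have hvt : t * v = v * t := by
    have h1 : z * (t * v) = z * (v * t) := by
      calc z * (t * v) = z * t * v := by group
        _ = v * (z * t) := hvzt.symm
        _ = (v * z) * t := by group
        _ = z * (v * t) := by rw [← hvz]; group
    exact mul_left_cancel h1
  obtain ⟨j, hj⟩ := exists_pow_conj hz2 ht h3 hv.symm
  have hvγ : v • γ = γ := by
    apply h.semi γ z _ hz hz1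
    rw [← mul_smul, hvz, mul_smul, PP_le_stab γ hz.1]
  set δ := (z * t) ^ j • γ with hδ
  have h5 : v * t ∈ AA G δ := by
    have := conj_mem_AA hz ((z * t) ^ j)
    rwa [hj] at this
  have h6 : v * t ≠ 1 := by
    intro e
    apply hz1
    have : z = ((z * t) ^ j)⁻¹ * ((z * t) ^ j * z * ((z * t) ^ j)⁻¹) * ((z * t) ^ j) := by group
    rw [this, hj, e]; group
  have h7 : t • δ = δ := by
    apply h.semi δ (v * t) _ h5 h6
    have h8 : (v * t) • δ = δ := PP_le_stab δ h5.1
    calc (v * t) • t • δ = (v * t * t) • δ := by rw [mul_smul (v * t)]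
      _ = (t * (v * t)) • δ := by rw [← mul_assoc t, hvt]
      _ = t • δ := by rw [mul_smul, h8]
  refine ⟨v * t, δ, h5, h6, h7, ?_⟩
  rw [← mul_assoc, hvt, mul_assoc, ht, mul_one, hvγ]

theorem partner_unique {t : G} (ht : t * t = 1) {γ δ δ' : Ω} (hγ : t • γ ≠ γ) {a a' : G} (ha : a ∈ AA G δ)
    (ha1 : a ≠ 1) (hδ : t • δ = δ) (hag : (t * a) • γ = γ) (ha' : a' ∈ AA G δ')
    (ha1' : a' ≠ 1) (hδ' : t • δ' = δ') (hag' : (t * a') • γ = γ) : a = a' := by
  have ht2 := El2.of_sq ht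
  have hc : t * a = a * t := AA_comm ha (mem_PP_of hδ ht2)
  have hc' : t * a' = a' * t := AA_comm ha' (mem_PP_of hδ' ht2)
  have hprod : (t * a) * (t * a') = a * a' := by
    rw [hc]
    calc a * t * (t * a') = a * (t * t) * a' := by group
      _ = a * a' := by rw [ht, mul_one]
  have hsq : (t * a) * (t * a) = 1 := by
    calc (t * a) * (t * a) = t * (a * t) * a := by group
      _ = (t * t) * (a * a) := by rw [← hc]; group
      _ = 1 := by rw [ht, AA_sq ha, mul_one]
  have hsq' : (t * a') * (t * a') = 1 := by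
    calc (t * a') * (t * a') = t * (a' * t) * a' := by group
      _ = (t * t) * (a' * a') := by rw [← hc']; group
      _ = 1 := by rw [ht, AA_sq ha', mul_one]
  have hfix : (a * a') • γ = γ := by rw [← hprod, mul_smul, hag', hag]
  have hinv : a * a' = 1 → a = a' := by
    intro e
    rw [← AA_inv ha']
    exact eq_inv_of_mul_eq_one_left e
  by_cases hdd : δ = δ'
  · subst hdd
    by_contra hne
    have h1 : a * a' ≠ 1 := fun e => hne (hinv e)
    have := h.semi δ _ γ (mul_mem ha ha') h1 hfix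
    exact hγ (this ▸ hδ)
  · apply hinv
    apply El2.eq_one_of_odd
    · rw [← hprod]
      exact ((mem_PP h).1 (mul_mem (mem_PP_of hag (El2.of_sq hsq)) (mem_PP_of hag' (El2.of_sq hsq')))).2
    · exact odd_mul h hdd ha ha' ha1 ha1'

theorem inter_fix {t : G} (ht : t * t = 1) {δ ω : Ω} {a : G} (ha : a ∈ AA G δ) (ha1 : a ≠ 1)
    (h1 : t • ω = ω) (h2 : (t * a) • ω = ω) : ω = δ := by
  apply h.semi δ a _ ha ha1
  have : t • (a • ω) = t • ω := by rw [← mul_smul, h2, h1]
  exact MulAction.injective t this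

open Classical in
/-- the count -/
theorem count1 {t : G} (ht : t * t = 1) {α β : Ω} (hab : α ≠ β) (hα : t • α = α) (hβ : t • β = β)
    (hA : ∀ γ : Ω, ∃ z ∈ AA G γ, z ≠ 1) (o : Ω) (x' : ℕ)
    (hx' : ∀ (a : G) (δ : Ω), a ∈ AA G δ → a ≠ 1 → t • δ = δ → nf G Ω (t * a) = x') :
    Nat.card Ω = nf G Ω t + nf G Ω t * ((Nat.card (AA G o) - 1) * (x' - 1)) := by
  classical
  have := Fintype.ofFinite Ω
  have := Fintype.ofFinite G
  set F : Finset Ω := Finset.univ.filter (fun ω => t • ω = ω) with hF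
  set N : Finset Ω := Finset.univ.filter (fun ω => ¬ t • ω = ω) with hN
  set Z : Finset G := Finset.univ.filter (fun a => a ≠ 1 ∧ ∃ δ : Ω, t • δ = δ ∧ a ∈ AA G δ) with hZ
  have hFc : F.card = nf G Ω t := by
    rw [hF, nf, Nat.card_eq_fintype_card, Fintype.card_subtype]
  have hFN : Nat.card Ω = F.card + N.card := by
    rw [Nat.card_eq_fintype_card, ← Finset.card_univ, hF, hN, Finset.card_filter_add_card_filter_not]
  -- first double count
  have hZc : Z.card = F.card * (Nat.card (AA G o) - 1) := by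
    have key := Finset.sum_card_bipartiteAbove_eq_sum_card_bipartiteBelow (s := Z) (t := F)
      (fun (a : G) (δ : Ω) => a ∈ AA G δ)
    have h1 : ∀ a ∈ Z, (F.bipartiteAbove (fun (a : G) (δ : Ω) => a ∈ AA G δ) a).card = 1 := by
      intro a ha
      rw [hZ, Finset.mem_filter] at ha
      obtain ⟨-, ha1, δ, hδ, haδ⟩ := ha
      rw [Finset.card_eq_one]
      refine ⟨δ, ?_⟩
      ext ω
      rw [Finset.mem_bipartiteAbove, Finset.mem_singleton, hF, Finset.mem_filter]
      constructor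
      · rintro ⟨-, h2⟩
        exact h.semi δ a ω haδ ha1 (PP_le_stab ω h2.1)
      · rintro rfl
        exact ⟨⟨Finset.mem_univ _, hδ⟩, haδ⟩
    have h2 : ∀ δ ∈ F, (Z.bipartiteBelow (fun (a : G) (δ : Ω) => a ∈ AA G δ) δ).card = Nat.card (AA G o) - 1 := by
      intro δ hδ
      rw [hF, Finset.mem_filter] at hδ
      rw [card_AA h o δ]
      have h3 : Z.bipartiteBelow (fun (a : G) (δ : Ω) => a ∈ AA G δ) δ =
          (Finset.univ.filter (fun a : G => a ∈ AA G δ)).erase 1 := by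
        ext a
        rw [Finset.mem_bipartiteBelow, Finset.mem_erase, hZ, Finset.mem_filter, Finset.mem_filter]
        constructor
        · rintro ⟨⟨-, h4, -⟩, h5⟩
          exact ⟨h4, Finset.mem_univ _, h5⟩
        · rintro ⟨h4, -, h5⟩
          exact ⟨⟨Finset.mem_univ _, h4, δ, hδ.2, h5⟩, h5⟩
      rw [h3, Finset.card_erase_of_mem (by simp [one_mem]), ← Fintype.card_subtype, Nat.card_eq_fintype_card]
    rw [Finset.sum_congr rfl h1, Finset.sum_congr rfl h2, Finset.sum_const, Finset.sum_const, smul_eq_mul,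
      smul_eq_mul, mul_one] at key
    exact key
  -- second double count
  have hNc : N.card = Z.card * (x' - 1) := by
    have key := Finset.sum_card_bipartiteAbove_eq_sum_card_bipartiteBelow (s := Z) (t := N)
      (fun (a : G) (γ : Ω) => (t * a) • γ = γ)
    have h1 : ∀ a ∈ Z, (N.bipartiteAbove (fun (a : G) (γ : Ω) => (t * a) • γ = γ) a).card = x' - 1 := by
      intro a ha
      rw [hZ, Finset.mem_filter] at ha
      obtain ⟨-, ha1, δ, hδ, haδ⟩ := ha
      rw [← hx' a δ haδ ha1 hδ]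
      have h3 : N.bipartiteAbove (fun (a : G) (γ : Ω) => (t * a) • γ = γ) a =
          (Finset.univ.filter (fun γ : Ω => (t * a) • γ = γ)).erase δ := by
        ext γ
        rw [Finset.mem_bipartiteAbove, Finset.mem_erase, hN, Finset.mem_filter, Finset.mem_filter]
        constructor
        · rintro ⟨⟨-, h4⟩, h5⟩
          refine ⟨?_, Finset.mem_univ _, h5⟩
          rintro rfl
          exact h4 hδ
        · rintro ⟨h4, -, h5⟩
          refine ⟨⟨Finset.mem_univ _, fun h6 => h4 (inter_fix h ht haδ ha1 h6 h5)⟩, h5⟩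
      rw [h3, Finset.card_erase_of_mem, nf, Nat.card_eq_fintype_card, Fintype.card_subtype]
      rw [Finset.mem_filter]
      exact ⟨Finset.mem_univ _, by rw [mul_smul, PP_le_stab δ haδ.1, hδ]⟩
    have h2 : ∀ γ ∈ N, (Z.bipartiteBelow (fun (a : G) (γ : Ω) => (t * a) • γ = γ) γ).card = 1 := by
      intro γ hγ
      rw [hN, Finset.mem_filter] at hγ
      obtain ⟨z, hz, hz1⟩ := hA γ
      obtain ⟨a, δ, haδ, ha1, hδ, hag⟩ := exists_partner h ht hab hα hβ hγ.2 hz hz1
      rw [Finset.card_eq_one]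
      refine ⟨a, ?_⟩
      ext b
      rw [Finset.mem_bipartiteBelow, Finset.mem_singleton, hZ, Finset.mem_filter]
      constructor
      · rintro ⟨⟨-, h4, ε, hε, hbε⟩, h5⟩
        exact partner_unique h ht hγ.2 hbε h4 hε h5 haδ ha1 hδ hag
      · rintro rfl
        exact ⟨⟨Finset.mem_univ _, ha1, δ, hδ, haδ⟩, hag⟩
    rw [Finset.sum_congr rfl h1, Finset.sum_congr rfl h2, Finset.sum_const, Finset.sum_const, smul_eq_mul,
      smul_eq_mul, mul_one] at key
    exact key.symm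
  rw [hFN, hNc, hZc, hFc, mul_assoc]

/-- all the products `t a` have the same number of fixed points -/
theorem nf_eq {t : G} (ht : t * t = 1) {α β : Ω} (hab : α ≠ β) (hα : t • α = α) (hβ : t • β = β)
    (hA : ∀ γ : Ω, ∃ z ∈ AA G γ, z ≠ 1) {a b : G} {δ ε : Ω} (ha : a ∈ AA G δ) (ha1 : a ≠ 1) (hδ : t • δ = δ)
    (hb : b ∈ AA G ε) (hb1 : b ≠ 1) (hε : t • ε = ε) : nf G Ω (t * a) = nf G Ω (t * b) := by
  have ht2 := El2.of_sq ht
  have key : ∀ {a b : G} {δ ε : Ω}, a ∈ AA G δ → a ≠ 1 → t • δ = δ → b ∈ AA G ε → b ≠ 1 → t • ε = ε → δ ≠ ε →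
      nf G Ω (t * a) = nf G Ω (t * b) := by
    intro a b δ ε ha ha1 hδ hb hb1 hε hne
    obtain ⟨c, hc, -, hcomm⟩ := exists_conj h hne ha hb ha1 hb1
    have h1 := hcomm t (AA_comm ha (mem_PP_of hδ ht2)) (AA_comm hb (mem_PP_of hε ht2))
    have h2 : c * (t * a) * c⁻¹ = t * b := by
      rw [← hc]
      calc c * (t * a) * c⁻¹ = (c * t) * a * c⁻¹ := by group
        _ = t * (c * a * c⁻¹) := by rw [← h1]; group
    rw [← h2, nf_conj]
  by_cases hde : δ = ε
  · subst hde
    obtain ⟨ζ, hζ, hζ2⟩ : ∃ ζ : Ω, ζ ≠ δ ∧ t • ζ = ζ := by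
      by_cases h1 : α = δ
      · exact ⟨β, fun e => hab (h1.trans e.symm), hβ⟩
      · exact ⟨α, h1, hα⟩
    obtain ⟨c, hc, hc1⟩ := hA ζ
    rw [key ha ha1 hδ hc hc1 hζ2 (Ne.symm hζ), key hc hc1 hζ2 hb hb1 hε hζ]
  · exact key ha ha1 hδ hb hb1 hε hde

theorem count2 {t : G} (ht : t * t = 1) {α β : Ω} (hab : α ≠ β) (hα : t • α = α) (hβ : t • β = β)
    (hA : ∀ γ : Ω, ∃ z ∈ AA G γ, z ≠ 1) (o : Ω) {a : G} {δ : Ω} (ha : a ∈ AA G δ) (ha1 : a ≠ 1) (hδ : t • δ = δ) :
    Nat.card Ω = nf G Ω t + nf G Ω t * ((Nat.card (AA G o) - 1) * (nf G Ω (t * a) - 1)) :=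
  count1 h ht hab hα hβ hA o _ (fun b ε hb hb1 hε => nf_eq h ht hab hα hβ hA hb hb1 hε ha ha1 hδ)

omit [Finite G] h in
theorem two_le_nf {t : G} {α β : Ω} (hab : α ≠ β) (hα : t • α = α) (hβ : t • β = β) : 2 ≤ nf G Ω t := by
  classical
  have := Fintype.ofFinite Ω
  unfold nf
  rw [Nat.card_eq_fintype_card]
  apply Fintype.one_lt_card_iff.2
  exact ⟨⟨α, hα⟩, ⟨β, hβ⟩, fun e => hab (congrArg Subtype.val e)⟩

omit [Finite G] h in
theorem exists_two {t : G} (h2 : 2 ≤ nf G Ω t) : ∃ α β : Ω, α ≠ β ∧ t • α = α ∧ t • β = β := by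
  classical
  have := Fintype.ofFinite Ω
  unfold nf at h2
  rw [Nat.card_eq_fintype_card] at h2
  obtain ⟨a, b, hab⟩ := Fintype.one_lt_card_iff.1 h2
  exact ⟨a.1, b.1, fun e => hab (Subtype.ext e), a.2, b.2⟩

omit [Finite G] h in
theorem smul_eq_of_nf {t : G} (h2 : Nat.card Ω ≤ nf G Ω t) (ω : Ω) : t • ω = ω := by
  classical
  have := Fintype.ofFinite Ω
  unfold nf at h2
  rw [Nat.card_eq_fintype_card, Nat.card_eq_fintype_card, Fintype.card_subtype] at h2
  have h3 : (Finset.univ.filter (fun ω : Ω => t • ω = ω)) = Finset.univ := by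
    apply Finset.eq_univ_of_card
    exact le_antisymm (Finset.card_le_univ _) h2
  have := Finset.mem_univ ω
  rw [← h3, Finset.mem_filter] at this
  exact this.2

/-- the fundamental equation -/
theorem count3 [FaithfulSMul G Ω] {t : G} (ht : t * t = 1) (ht1 : t ≠ 1) {α β : Ω} (hab : α ≠ β) (hα : t • α = α)
    (hβ : t • β = β) (o : Ω) (hq : 4 ≤ Nat.card (AA G o)) :
    Nat.card Ω = nf G Ω t + nf G Ω t * ((Nat.card (AA G o) - 1) * (nf G Ω t - 1)) ∧
    ∀ (a : G) (δ : Ω), a ∈ AA G δ → t • δ = δ → nf G Ω (t * a) = nf G Ω t := by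
  have hA : ∀ γ : Ω, ∃ z ∈ AA G γ, z ≠ 1 := by
    intro γ
    by_contra hc
    push Not at hc
    have h1 : AA G γ = ⊥ := by
      rw [eq_bot_iff]
      intro z hz
      exact hc z hz
    rw [card_AA h o γ, h1, Subgroup.card_bot] at hq
    omega
  obtain ⟨a, ha, ha1⟩ := hA α
  have e1 := count2 h ht hab hα hβ hA o ha ha1 hα
  set q := Nat.card (AA G o) with hqd
  set f := nf G Ω t with hf
  set f' := nf G Ω (t * a) with hf'
  have hf2 : 2 ≤ f := two_le_nf hab hα hβ
  -- `t a` has another fixed point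
  have hf2' : 2 ≤ f' := by
    by_contra hlt
    have h0 : f' - 1 = 0 := by omega
    rw [h0, mul_zero, mul_zero, add_zero] at e1
    apply ht1
    apply eq_of_smul_eq_smul (α := Ω)
    intro ω
    rw [one_smul]
    exact smul_eq_of_nf e1.le ω
  have hc : t * a = a * t := AA_comm ha (mem_PP_of hα (El2.of_sq ht))
  have hsq : (t * a) * (t * a) = 1 := by
    calc (t * a) * (t * a) = t * (a * t) * a := by group
      _ = (t * t) * (a * a) := by rw [← hc]; group
      _ = 1 := by rw [ht, AA_sq ha, mul_one]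
  obtain ⟨γ, δ, hgd, hγ, hδ⟩ := exists_two (hf' ▸ hf2')
  have e2 := count2 h hsq hgd hγ hδ hA o ha ha1 (by rw [mul_smul, PP_le_stab α ha.1, hα])
  rw [mul_assoc, AA_sq ha, mul_one, ← hf, ← hf', ← hqd] at e2
  have hff : f' = f := by
    obtain ⟨x, hx⟩ : ∃ x, f = x + 1 := ⟨f - 1, by omega⟩
    obtain ⟨y, hy⟩ : ∃ y, f' = y + 1 := ⟨f' - 1, by omega⟩
    obtain ⟨r, hr⟩ : ∃ r, q = r + 1 := ⟨q - 1, by omega⟩
    rw [hx, hy, hr] at e1 e2
    simp only [Nat.add_sub_cancel] at e1 e2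
    have e3 := e1.symm.trans e2
    -- (x+1) + (x+1) r y = (y+1) + (y+1) r x
    have e4 : x + r * y = y + r * x := by nlinarith [e3]
    have hr3 : 3 ≤ r := by omega
    have e5 : (r - 1) * y = (r - 1) * x := by
      obtain ⟨k, rfl⟩ : ∃ k, r = k + 1 := ⟨r - 1, by omega⟩
      simp only [Nat.add_sub_cancel]
      nlinarith [e4]
    have : y = x := Nat.eq_of_mul_eq_mul_left (by omega) e5
    omega
  rw [hff] at e1
  refine ⟨e1, ?_⟩
  intro b ε hb hε
  by_cases hb1 : b = 1
  · rw [hb1, mul_one]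
  · rw [nf_eq h ht hab hα hβ hA hb hb1 hε ha ha1 hα, ← hf', hff]

end

end Cfsg.Agent.H27.SB
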