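import Cfsg.Agent.H27.SB1
import Cfsg.Prelude.Def_Involutions

/-!
# The fixed points of the 2-part of a two-point stabiliser
-/

set_option autoImplicit false
set_option linter.unusedVariables false
set_option linter.unusedSectionVars false

namespace Cfsg.Agent.H27.SB

open MulAction Subgroup

universe u v

/-- the consequence of the Bender-Suzuki theorem which we use -/
def BSHyp : Prop :=
  ∀ (Q : Type u) [Group Q] [Finite Q] (H : Subgroup Q), Cfsg.IsStronglyEmbedded H →
    (∃ a b : Q, orderOf a = 2 ∧ orderOf b = 2 ∧ a * b = b * a ∧ a ≠ b) →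
    ∃ S : Sylow 2 Q, (S : Subgroup Q) ≤ H ∧ H.index = Nat.card S + 1

variable {G : Type u} [Group G] [Finite G] {Ω : Type v} [MulAction G Ω] [Finite Ω]

theorem orderOf_eq_two_of {Q : Type*} [Group Q] {x : Q} (h1 : x * x = 1) (h2 : x ≠ 1) : orderOf x = 2 := by
  have := Fact.mk Nat.prime_two
  exact orderOf_eq_prime (by rw [pow_two, h1]) h2

theorem isPGroup_PP (h : Cfg G Ω) (α : Ω) : IsPGroup 2 (PP G α) := by
  intro x
  obtain ⟨k, hk⟩ := ((mem_PP h).1 x.2).2
  exact ⟨k, Subtype.ext hk⟩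

section

variable (h : Cfg G Ω) {o β : Ω} (hob : o ≠ β)
include h hob

/-- any two points fixed by `R` have the same `R` -/
theorem inf_eq {α γ : Ω} (hag : α ≠ γ) (hα : ∀ r ∈ PP G o ⊓ PP G β, r • α = α)
    (hγ : ∀ r ∈ PP G o ⊓ PP G β, r • γ = γ) : PP G α ⊓ PP G γ = PP G o ⊓ PP G β := by
  symm
  apply Subgroup.eq_of_le_of_card_ge
  · intro r hr
    have h2 := ((mem_PP h).1 hr.1).2
    exact ⟨mem_PP_of (hα r hr) h2, mem_PP_of (hγ r hr) h2⟩
  · obtain ⟨g, h1, h2⟩ := h.two o β α γ hob hag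
    apply le_of_eq
    apply Nat.card_congr
    refine ⟨fun x => ⟨g⁻¹ * x.1 * g, ?_, ?_⟩, fun x => ⟨g * x.1 * g⁻¹, ?_, ?_⟩, ?_, ?_⟩
    · show g⁻¹ * x.1 * g ∈ PP G o
      rw [← conj_mem_PP_iff g, h1]
      have e : g * (g⁻¹ * x.1 * g) * g⁻¹ = x.1 := by group
      rw [e]; exact x.2.1
    · show g⁻¹ * x.1 * g ∈ PP G β
      rw [← conj_mem_PP_iff g, h2]
      have e : g * (g⁻¹ * x.1 * g) * g⁻¹ = x.1 := by group
      rw [e]; exact x.2.2
    · have := conj_mem_PP x.2.1 g
      rwa [h1] at this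
    · have := conj_mem_PP x.2.2 g
      rwa [h2] at this
    · intro x; apply Subtype.ext; simp only; group
    · intro x; apply Subtype.ext; simp only; group

/-- elements of `A_α` centralise `R` if `R` fixes `α` -/
theorem comm_of_fix {α : Ω} (hα : ∀ r ∈ PP G o ⊓ PP G β, r • α = α) {a : G} (ha : a ∈ AA G α) :
    ∀ r ∈ PP G o ⊓ PP G β, r * a = a * r := by
  intro r hr
  exact AA_comm ha (mem_PP_of (hα r hr) ((mem_PP h).1 hr.1).2)

omit h hob in
theorem mem_norm_of_comm {R : Subgroup G} {a : G} (ha : ∀ r ∈ R, r * a = a * r) :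
    a ∈ normalizer (R : Set G) := by
  rw [Subgroup.mem_normalizer_iff]
  intro r
  constructor
  · intro hr
    have : a * r * a⁻¹ = r := by rw [← ha r hr]; group
    rw [this]; exact hr
  · intro hr
    have h1 := ha _ hr
    have : r = a * r * a⁻¹ := by
      have h2 : a * (a * r * a⁻¹) = a * r := by rw [← h1]; group
      exact (mul_left_cancel h2).symm
    rw [this]; exact hr

theorem transitive_fix (hBS : BSHyp.{u}) (hq : 4 ≤ Nat.card (AA G o)) {γ : Ω} (hγo : γ ≠ o)
    (hγ : ∀ r ∈ PP G o ⊓ PP G β, r • γ = γ) : ∃ s ∈ PP G o, s • β = γ := by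
  classical
  set R := PP G o ⊓ PP G β with hR
  set M := normalizer (R : Set G) with hM
  have hRo : ∀ r ∈ R, r • o = o := fun r hr => PP_le_stab o hr.1
  have hRb : ∀ r ∈ R, r • β = β := fun r hr => PP_le_stab β hr.2
  have hRM : R ≤ M := le_normalizer
  have hA : ∀ γ : Ω, ∃ z ∈ AA G γ, z ≠ 1 := by
    intro γ
    by_contra hc
    push Not at hc
    have h1 : AA G γ = ⊥ := by
      rw [eq_bot_iff]
      intro z hz
      exact hc z hz
    rw [card_AA h o γ, h1, Subgroup.card_bot] at hq
    omega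
  -- elements of `M` permute the fixed points of `R`
  have hMfix : ∀ m ∈ M, ∀ α : Ω, (∀ r ∈ R, r • α = α) → ∀ r ∈ R, r • (m • α) = m • α := by
    intro m hm α hα r hr
    have h1 : m⁻¹ * r * m ∈ R := by
      have := (Subgroup.mem_normalizer_iff.1 (inv_mem hm) r).1 hr
      rwa [inv_inv] at this
    have h2 := hα _ h1
    rw [mul_smul, mul_smul, inv_smul_eq_iff] at h2
    exact h2
  set R' : Subgroup M := R.subgroupOf M with hR'
  have hR'n : R'.Normal := Subgroup.normal_in_normalizer
  set Mo : Subgroup M := stabilizer M o with hMo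
  have hR'Mo : R' ≤ Mo := by
    intro r hr
    rw [hMo, mem_stabilizer_iff]
    exact hRo r.1 hr
  let π : M →* M ⧸ R' := QuotientGroup.mk' R'
  have hπs : Function.Surjective π := QuotientGroup.mk'_surjective R'
  have hπk : π.ker = R' := QuotientGroup.ker_mk' R'
  have hπ1 : ∀ m : M, π m = 1 ↔ (m : G) ∈ R := by
    intro m
    rw [← MonoidHom.mem_ker, hπk, hR', Subgroup.mem_subgroupOf]
  set H : Subgroup (M ⧸ R') := Mo.map π with hH
  have hmemH : ∀ m : M, π m ∈ H ↔ (m : G) • o = o := by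
    intro m
    rw [hH, Subgroup.mem_map]
    constructor
    · rintro ⟨x, hx, hxm⟩
      have h1 : x⁻¹ * m ∈ R' := by
        rw [← hπk, MonoidHom.mem_ker, map_mul, map_inv, hxm, inv_mul_cancel]
      have h2 : m = x * (x⁻¹ * m) := by group
      have h3 : m ∈ Mo := by
        rw [h2]
        exact mul_mem hx (hR'Mo h1)
      exact h3
    · intro hm
      exact ⟨m, hm, rfl⟩
  -- the elements of `A_o`, `A_β` in `M`
  have hAoM : ∀ a ∈ AA G o, a ∈ M := fun a ha => mem_norm_of_comm (comm_of_fix h hob hRo ha)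
  have hAbM : ∀ a ∈ AA G β, a ∈ M := fun a ha => mem_norm_of_comm (comm_of_fix h hob hRb ha)
  have hAoR : ∀ a ∈ AA G o, a ∈ R → a = 1 := by
    intro a ha har
    by_contra hne
    exact hob (h.semi o a β ha hne (hRb a har)).symm
  have hSE : Cfsg.IsStronglyEmbedded H := by
    refine ⟨?_, ?_, ?_⟩
    · intro htop
      obtain ⟨z, hz, hz1⟩ := hA β
      have h1 : π ⟨z, hAbM z hz⟩ ∈ H := by rw [htop]; trivial
      rw [hmemH] at h1
      exact hob (h.semi β z o hz hz1 h1)
    · obtain ⟨z, hz, hz1⟩ := hA o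
      have h1 : π ⟨z, hAoM z hz⟩ ∈ H := by
        rw [hmemH]; exact PP_le_stab o hz.1
      have h2 : orderOf (⟨_, h1⟩ : H) = 2 := by
        apply orderOf_eq_two_of
        · apply Subtype.ext
          show π _ * π _ = 1
          rw [← map_mul]
          have : (⟨z, hAoM z hz⟩ : M) * ⟨z, hAoM z hz⟩ = 1 := Subtype.ext (AA_sq hz)
          rw [this, map_one]
        · intro e
          have h3 : π ⟨z, hAoM z hz⟩ = 1 := congrArg Subtype.val e
          rw [hπ1] at h3
          exact hz1 (hAoR z hz h3)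
      have h3 : 2 ∣ Nat.card H := h2 ▸ orderOf_dvd_natCard _
      exact even_iff_two_dvd.2 h3
    · intro g hg
      obtain ⟨m, rfl⟩ := hπs g
      by_contra hodd
      rw [Nat.not_odd_iff_even] at hodd
      have := Fact.mk Nat.prime_two
      obtain ⟨x, hx⟩ := exists_prime_orderOf_dvd_card' 2 hodd.two_dvd
      obtain ⟨⟨y, hy1, hy2⟩, rfl⟩ : ∃ y, y = x := ⟨x, rfl⟩
      obtain ⟨n, rfl⟩ := hπs y
      have hn1 : (n : G) • o = o := (hmemH n).1 hy1
      have hn2 : (n : G) • ((m : G) • o) = (m : G) • o := by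
        obtain ⟨w, hw, hwn⟩ := hy2
        obtain ⟨w', rfl⟩ := hπs w
        have h1 : π (m * w' * m⁻¹) = π n := by
          rw [map_mul, map_mul, map_inv]
          exact hwn
        have h2 : (m⁻¹ * n * m) ∈ Mo := by
          have h3 : π (m⁻¹ * n * m) ∈ H := by
            have h4 : π (m⁻¹ * n * m) = π w' := by
              rw [map_mul, map_mul, ← h1, map_mul, map_mul, map_inv]
              group
            rw [h4]; exact hw
          exact (hmemH _).1 h3
        have h5 : ((m⁻¹ * n * m : M) : G) • o = o := h2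
        have h6 : ((m⁻¹ * n * m : M) : G) = (m : G)⁻¹ * n * m := rfl
        rw [h6, mul_smul, mul_smul, inv_smul_eq_iff] at h5
        exact h5
      have hmo : (m : G) • o ≠ o := fun e => hg ((hmemH m).2 e)
      have hn3 : El2 (n : G) := by
        have h1 : π (n ^ 2) = 1 := by
          have h2 : (π n) ^ 2 = 1 := by
            have := pow_orderOf_eq_one (⟨π n, hy1, hy2⟩ : ↥(H ⊓ H.map (MulAut.conj (π m)).toMonoidHom))
            rw [hx] at this
            exact congrArg Subtype.val this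
          rw [map_pow, h2]
        rw [hπ1] at h1
        obtain ⟨k, hk⟩ := ((mem_PP h).1 h1.1).2
        refine ⟨k + 1, ?_⟩
        rw [pow_succ, mul_comm, pow_mul]
        exact hk
      have h7 : (n : G) ∈ R := by
        rw [hR, ← inf_eq h hob (Ne.symm hmo) hRo (hMfix m m.2 o hRo)]
        exact ⟨mem_PP_of hn1 hn3, mem_PP_of hn2 hn3⟩
      have h8 : π n = 1 := (hπ1 n).2 h7
      have h9 : (⟨π n, hy1, hy2⟩ : ↥(H ⊓ H.map (MulAut.conj (π m)).toMonoidHom)) = 1 := Subtype.ext h8
      rw [h9, orderOf_one] at hx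
      omega
  -- two commuting involutions
  have hcomm : ∃ a b : M ⧸ R', orderOf a = 2 ∧ orderOf b = 2 ∧ a * b = b * a ∧ a ≠ b := by
    have := Fintype.ofFinite (AA G o)
    rw [Nat.card_eq_fintype_card] at hq
    obtain ⟨x, hx1⟩ : ∃ x : AA G o, x ≠ 1 := by
      have : Nontrivial (AA G o) := Fintype.one_lt_card_iff_nontrivial.1 (by omega)
      exact exists_ne 1
    obtain ⟨y, hy⟩ : ∃ y : AA G o, y ∉ ({1, x} : Finset (AA G o)) := by
      by_contra hc
      push Not at hc
      have h1 : (Finset.univ : Finset (AA G o)) ⊆ {1, x} := fun z _ => hc z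
      have h2 := Finset.card_le_card h1
      have h3 : ({1, x} : Finset (AA G o)).card ≤ 2 := Finset.card_le_two
      rw [Finset.card_univ] at h2
      omega
    simp only [Finset.mem_insert, Finset.mem_singleton, not_or] at hy
    have hord : ∀ z : AA G o, z ≠ 1 → orderOf (π ⟨z.1, hAoM z.1 z.2⟩) = 2 := by
      intro z hz
      apply orderOf_eq_two_of
      · rw [← map_mul]
        have : (⟨z.1, hAoM z.1 z.2⟩ : M) * ⟨z.1, hAoM z.1 z.2⟩ = 1 := Subtype.ext (AA_sq z.2)
        rw [this, map_one]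
      · intro e
        rw [hπ1] at e
        exact hz (Subtype.ext (hAoR z.1 z.2 e))
    refine ⟨_, _, hord x hx1, hord y hy.1, ?_, ?_⟩
    · rw [← map_mul, ← map_mul]
      congr 1
      apply Subtype.ext
      exact (AA_comm x.2 y.2.1).symm
    · intro e
      have h1 : π (⟨x.1, hAoM x.1 x.2⟩ * ⟨y.1, hAoM y.1 y.2⟩⁻¹) = 1 := by
        rw [map_mul, map_inv, e, mul_inv_cancel]
      rw [hπ1] at h1
      have h2 : x.1 * y.1⁻¹ = 1 := hAoR _ (mul_mem x.2 (inv_mem y.2)) h1
      exact hy.2 (Subtype.ext (mul_inv_eq_one.1 h2)).symm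
  obtain ⟨P, hPH, hidx⟩ := hBS _ H hSE hcomm
  -- the Sylow subgroup is the image of `N`
  set N : Subgroup M := (PP G o).subgroupOf M with hN
  have hPN : (P : Subgroup (M ⧸ R')) = N.map π := by
    symm
    have h1 : (P : Subgroup (M ⧸ R')) ≤ N.map π := by
      intro y hy
      obtain ⟨m, rfl⟩ := hπs y
      refine ⟨m, ?_, rfl⟩
      show (m : G) ∈ PP G o
      refine mem_PP_of ((hmemH m).1 (hPH hy)) ?_
      obtain ⟨k, hk⟩ := P.isPGroup' ⟨π m, hy⟩
      have h2 : π (m ^ 2 ^ k) = 1 := by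
        rw [map_pow]; exact congrArg Subtype.val hk
      rw [hπ1] at h2
      obtain ⟨j, hj⟩ := ((mem_PP h).1 h2.1).2
      refine ⟨k + j, ?_⟩
      rw [pow_add, pow_mul]
      exact hj
    have h2 : IsPGroup 2 (N.map π) := by
      apply IsPGroup.map
      intro x
      obtain ⟨k, hk⟩ := ((mem_PP h).1 (show (x.1 : G) ∈ PP G o from x.2)).2
      refine ⟨k, ?_⟩
      apply Subtype.ext
      apply Subtype.ext
      exact hk
    exact P.is_maximal' h2 h1
  -- the set of fixed points
  set L : Set Ω := {ω | ∀ r ∈ R, r • ω = ω} with hL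
  have hLo : orbit M o = L := by
    apply Set.Subset.antisymm
    · rintro _ ⟨m, rfl⟩
      exact hMfix m m.2 o hRo
    · intro ω hω
      by_cases hωo : ω = o
      · rw [hωo]; exact mem_orbit_self o
      · obtain ⟨x, hx, hx1⟩ := hA o
        obtain ⟨y, hy, hy1⟩ := hA ω
        obtain ⟨c, -, hc, hcc⟩ := exists_conj h (Ne.symm hωo) hx hy hx1 hy1
        have hcM : c ∈ M := by
          apply mem_norm_of_comm
          intro r hr
          exact hcc r (comm_of_fix h hob hRo hx r hr) (comm_of_fix h hob hω hy r hr)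
        exact ⟨⟨c, hcM⟩, hc⟩
  have hLc : L.ncard = (N.map π).index * 0 + (Nat.card (N.map π) + 1) := by
    rw [mul_zero, zero_add, ← hLo, ← index_stabilizer, ← hMo, ← hPN, ← hidx, hH]
    exact (Subgroup.index_map_eq _ hπs (hπk.le.trans hR'Mo)).symm
  -- the orbit of `β` under `N`
  have hstab : stabilizer N β = R'.subgroupOf N := by
    ext x
    rw [mem_stabilizer_iff, Subgroup.mem_subgroupOf, hR', Subgroup.mem_subgroupOf]
    constructor
    · intro hx
      exact ⟨x.2, mem_PP_of hx ((mem_PP h).1 (show ((x : M) : G) ∈ PP G o from x.2)).2⟩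
    · intro hx
      exact hRb _ hx
  have horb : (orbit N β).ncard = Nat.card (N.map π) := by
    rw [← index_stabilizer, hstab]
    have := Subgroup.relIndex_ker (K := N) π
    rw [hπk] at this
    exact this
  have hsub : orbit N β ⊆ L \ {o} := by
    rintro _ ⟨x, rfl⟩
    refine ⟨hMfix _ (x : M).2 β hRb, ?_⟩
    intro e
    have h1 : ((x : M) : G) • β = o := e
    have h2 : ((x : M) : G) • o = o := PP_le_stab o x.2
    exact hob (MulAction.injective ((x : M) : G) (h2.trans h1.symm))
  have hLfin : (L \ {o}).Finite := Set.toFinite _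
  have heq : orbit N β = L \ {o} := by
    apply Set.eq_of_subset_of_ncard_le hsub _ hLfin
    rw [horb, Set.ncard_sdiff_singleton_of_mem (show o ∈ L from hRo), hLc]
    omega
  have hγL : γ ∈ L \ {o} := ⟨hγ, hγo⟩
  rw [← heq] at hγL
  obtain ⟨x, hx⟩ := hγL
  exact ⟨((x : M) : G), x.2, hx⟩

end

end Cfsg.Agent.H27.SB
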