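import Cfsg.Agent.H27.SB2

/-!
# The numbers
-/

set_option autoImplicit false
set_option linter.unusedVariables false
set_option linter.unusedSectionVars false

namespace Cfsg.Agent.H27.SB

open MulAction Subgroup

universe u v

theorem num_lemma {c e j : ℕ} (he : 2 ≤ e) (h : 2 ^ c * (2 ^ e - 1) + 2 ^ e = 2 ^ j) : c = e := by
  have h4 : 4 ≤ 2 ^ e := by
    calc 4 = 2 ^ 2 := by norm_num
      _ ≤ 2 ^ e := Nat.pow_le_pow_right (by norm_num) he
  have key : ∀ x : ℕ, Odd x → 1 < x → ¬ x ∣ 2 ^ j := by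
    intro x hx hx1 hdvd
    obtain ⟨i, -, rfl⟩ := (Nat.dvd_prime_pow Nat.prime_two).1 hdvd
    have : i ≠ 0 := by rintro rfl; simp at hx1
    exact (Nat.not_even_iff_odd.2 hx) (Nat.even_pow.2 ⟨even_two, this⟩)
  rcases lt_trichotomy c e with hlt | heq | hgt
  · exfalso
    obtain ⟨d, rfl⟩ : ∃ d, e = c + d + 1 := ⟨e - c - 1, by omega⟩
    apply key (2 ^ (c + d + 1) - 1 + 2 ^ (d + 1))
    · apply Odd.add_even
      · exact Nat.Even.sub_odd (by omega) (Nat.even_pow.2 ⟨even_two, by omega⟩) odd_one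
      · exact Nat.even_pow.2 ⟨even_two, by omega⟩
    · have := Nat.one_le_two_pow (n := d + 1)
      omega
    · refine ⟨2 ^ c, ?_⟩
      rw [← h]
      have : 2 ^ (c + d + 1) = 2 ^ c * 2 ^ (d + 1) := by rw [← pow_add]; ring_nf
      conv_lhs => rw [show 2 ^ c * (2 ^ (c + d + 1) - 1) + 2 ^ (c + d + 1) =
        2 ^ c * (2 ^ (c + d + 1) - 1) + 2 ^ c * 2 ^ (d + 1) from by rw [← this]]
      ring
  · exact heq
  · exfalso
    obtain ⟨d, rfl⟩ : ∃ d, c = e + d + 1 := ⟨c - e - 1, by omega⟩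
    apply key (2 ^ (d + 1) * (2 ^ e - 1) + 1)
    · apply Even.add_odd _ odd_one
      exact (Nat.even_pow.2 ⟨even_two, by omega⟩).mul_right _
    · have h1 := Nat.one_le_two_pow (n := d + 1)
      have : 0 < 2 ^ (d + 1) * (2 ^ e - 1) := Nat.mul_pos (by omega) (by omega)
      omega
    · refine ⟨2 ^ e, ?_⟩
      rw [← h]
      have : 2 ^ (e + d + 1) = 2 ^ e * 2 ^ (d + 1) := by rw [← pow_add]; ring_nf
      rw [this]
      ring

variable {G : Type u} [Group G] [Finite G] {Ω : Type v} [MulAction G Ω] [Finite Ω]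

/-- the second set-up -/
structure Cfg2 (G : Type u) [Group G] {Ω : Type v} [MulAction G Ω] (o β : Ω) : Prop where
  h : Cfg G Ω
  hob : o ≠ β
  q4 : 4 ≤ Nat.card (AA G o)
  trans : ∀ γ : Ω, γ ≠ o → ∃ s ∈ PP G o, s • β = γ
  nf_add : ∀ t a : G, t * t = 1 → t ≠ 1 → t • o = o → (∃ γ : Ω, γ ≠ o ∧ t • γ = γ) → a ∈ AA G o →
    ∃ γ : Ω, γ ≠ o ∧ (t * a) • γ = γ
  orb : ∀ t : G, t * t = 1 → t ≠ 1 → t • o = o → ∀ γ γ' : Ω, γ ≠ o → γ' ≠ o → t • γ = γ → t • γ' = γ' →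
    ∃ a ∈ AA G o, a • γ = γ'
  card : Nat.card (PP G o) = Nat.card ↥(PP G o ⊓ PP G β) * Nat.card (AA G o) ^ 3

section

variable (h : Cfg G Ω) {o β : Ω} (hob : o ≠ β)
include h hob

theorem trans_of (hBS : BSHyp.{u}) (hq : 4 ≤ Nat.card (AA G o))
    (hU : ∀ γ : Ω, γ ≠ o → ∃ s ∈ PP G o, ∃ v : G, (∀ s ∈ PP G o, s * v = v * s) ∧ v • β ≠ o ∧ γ = s • v • β) {γ : Ω}
    (hγ : γ ≠ o) : ∃ s ∈ PP G o, s • β = γ := by
  obtain ⟨s, hs, v, hv, hvb, rfl⟩ := hU γ hγ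
  obtain ⟨s', hs', hs2⟩ := transitive_fix h hob hBS hq hvb (by
    intro r hr
    rw [← mul_smul, hv r hr.1, mul_smul, PP_le_stab β hr.2])
  exact ⟨s * s', mul_mem hs hs', by rw [mul_smul, hs2]⟩

theorem card_of_trans (ht : ∀ γ : Ω, γ ≠ o → ∃ s ∈ PP G o, s • β = γ) :
    Nat.card (PP G o) = Nat.card ↥(PP G o ⊓ PP G β) * (Nat.card Ω - 1) := by
  classical
  have h1 := (stabilizer (PP G o) β).card_mul_index
  rw [index_stabilizer] at h1
  have h2 : orbit (PP G o) β = {o}ᶜ := by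
    ext γ
    rw [Set.mem_compl_iff, Set.mem_singleton_iff]
    constructor
    · rintro ⟨x, rfl⟩ e
      have h1 : (x : G) • β = o := e
      exact hob (MulAction.injective (x : G) ((PP_le_stab o x.2).trans h1.symm))
    · intro hγ
      obtain ⟨s, hs, hs2⟩ := ht γ hγ
      exact ⟨⟨s, hs⟩, hs2⟩
  have h3 : ({o}ᶜ : Set Ω).ncard = Nat.card Ω - 1 := by
    rw [Set.ncard_compl, Set.ncard_singleton]
  have h4 : Nat.card (stabilizer (PP G o) β) = Nat.card ↥(PP G o ⊓ PP G β) := by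
    apply Nat.card_congr
    refine ⟨fun x => ⟨x.1.1, x.1.2, mem_PP_of x.2 ((mem_PP h).1 x.1.2).2⟩, fun x => ⟨⟨x.1, x.2.1⟩, ?_⟩,
      ?_, ?_⟩
    · exact PP_le_stab (G := G) β x.2.2
    · intro x; rfl
    · intro x; rfl
  rw [h2, h3, h4] at h1
  exact h1.symm

theorem cfg2_of [FaithfulSMul G Ω] (hBS : BSHyp.{u}) (hq : 4 ≤ Nat.card (AA G o))
    (hU : ∀ γ : Ω, γ ≠ o → ∃ s ∈ PP G o, ∃ v : G, (∀ s ∈ PP G o, s * v = v * s) ∧ v • β ≠ o ∧ γ = s • v • β)
    (hR : PP G o ⊓ PP G β ≠ ⊥) : Cfg2 G o β := by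
  classical
  have := Fact.mk Nat.prime_two
  have ht : ∀ γ : Ω, γ ≠ o → ∃ s ∈ PP G o, s • β = γ := fun γ hγ => trans_of h hob hBS hq hU hγ
  have hcard := card_of_trans h hob ht
  obtain ⟨k, hk⟩ := IsPGroup.iff_card.1 (isPGroup_PP h o)
  obtain ⟨e, he⟩ := IsPGroup.iff_card.1 ((isPGroup_PP h o).to_le (AA_le_PP o))
  have he2 : 2 ≤ e := by
    by_contra hlt
    have : 2 ^ e ≤ 2 ^ 1 := Nat.pow_le_pow_right (by norm_num) (by omega)
    omega
  -- the number of fixed points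
  have key : ∀ (t : G) (γ : Ω), t * t = 1 → t ≠ 1 → t • o = o → γ ≠ o → t • γ = γ →
      nf G Ω t = Nat.card (AA G o) + 1 ∧ Nat.card Ω = Nat.card (AA G o) ^ 3 + 1 := by
    intro t γ ht2 ht1 hto hγo hγ
    have h1 := (count3 h ht2 ht1 (Ne.symm hγo) hto hγ o hq).1
    have hf2 : 2 ≤ nf G Ω t := two_le_nf (Ne.symm hγo) hto hγ
    set f := nf G Ω t with hf
    obtain ⟨x, hx⟩ : ∃ x, f = x + 1 := ⟨f - 1, by omega⟩
    have h2 : Nat.card Ω - 1 = x * (1 + f * (Nat.card (AA G o) - 1)) := by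
      rw [h1, hx]
      simp only [Nat.add_sub_cancel]
      have : x + 1 + (x + 1) * ((Nat.card (AA G o) - 1) * x) - 1 = x + (x + 1) * ((Nat.card (AA G o) - 1) * x) := by omega
      rw [this]; ring
    have h3 : Nat.card Ω - 1 ∣ 2 ^ k := by rw [← hk, hcard]; exact Dvd.intro_left _ rfl
    obtain ⟨c, -, hc⟩ := (Nat.dvd_prime_pow Nat.prime_two).1 ((Dvd.intro _ h2.symm).trans h3)
    obtain ⟨j, -, hj⟩ := (Nat.dvd_prime_pow Nat.prime_two).1 ((Dvd.intro_left _ h2.symm).trans h3)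
    have h4 : c = e := by
      apply num_lemma he2 (j := j)
      rw [← hj, hx, hc, he]
      have : 1 ≤ 2 ^ e := Nat.one_le_two_pow
      obtain ⟨y, hy⟩ : ∃ y, 2 ^ e = y + 1 := ⟨2 ^ e - 1, by omega⟩
      rw [hy]
      simp only [Nat.add_sub_cancel]
      ring
    have h5 : x = Nat.card (AA G o) := by rw [hc, h4, he]
    refine ⟨by rw [hx, h5], ?_⟩
    have h6 : 1 ≤ Nat.card Ω := by omega
    have h7 : Nat.card Ω = Nat.card Ω - 1 + 1 := by omega
    rw [h7, h2, hx, ← h5]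
    obtain ⟨y, hy⟩ : ∃ y, x = y + 1 := ⟨x - 1, by omega⟩
    rw [hy]
    simp only [Nat.add_sub_cancel]
    ring
  have hn : Nat.card Ω = Nat.card (AA G o) ^ 3 + 1 := by
    have h1 : 2 ∣ Nat.card ↥(PP G o ⊓ PP G β) := by
      have h2 : IsPGroup 2 ↥(PP G o ⊓ PP G β) := (isPGroup_PP h o).to_le inf_le_left
      obtain ⟨j, hj⟩ := IsPGroup.iff_card.1 h2
      rw [hj]
      apply dvd_pow_self
      rintro rfl
      rw [pow_zero] at hj
      exact hR (Subgroup.card_eq_one.1 hj)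
    obtain ⟨x, hx⟩ := exists_prime_orderOf_dvd_card' 2 h1
    have hx2 : (x : G) ^ 2 = 1 := by
      have := pow_orderOf_eq_one x
      rw [hx] at this
      exact congrArg Subtype.val this
    have hx1 : (x : G) ≠ 1 := by
      intro e
      have : x = 1 := Subtype.ext e
      rw [this, orderOf_one] at hx
      omega
    exact (key x.1 β (by rw [← pow_two, hx2]) hx1 (PP_le_stab o x.2.1) (Ne.symm hob) (PP_le_stab β x.2.2)).2
  refine ⟨h, hob, hq, ht, ?_, ?_, ?_⟩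
  · rintro t a ht2 ht1 hto ⟨γ, hγo, hγ⟩ ha
    have h1 := (count3 h ht2 ht1 (Ne.symm hγo) hto hγ o hq).2 a o ha hto
    have h2 : 2 ≤ nf G Ω (t * a) := by rw [h1]; exact two_le_nf (Ne.symm hγo) hto hγ
    obtain ⟨x, y, hxy, hx, hy⟩ := exists_two h2
    by_cases hxo : x = o
    · exact ⟨y, fun e => hxy (hxo.trans e.symm), hy⟩
    · exact ⟨x, hxo, hx⟩
  · intro t ht2 ht1 hto γ γ' hγo hγo' hγ hγ'
    have h1 := (key t γ ht2 ht1 hto hγo hγ).1
    -- the orbit of `γ` under `A`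
    have h2 : (orbit (AA G o) γ).ncard = Nat.card (AA G o) := by
      rw [← index_stabilizer]
      have : stabilizer (AA G o) γ = ⊥ := by
        rw [eq_bot_iff]
        intro a ha
        rw [Subgroup.mem_bot]
        by_contra hne
        exact hγo (h.semi o a.1 γ a.2 (fun e => hne (Subtype.ext e)) ha)
      rw [this, Subgroup.index_bot]
    have h3 : orbit (AA G o) γ ⊆ {ω | t • ω = ω} \ {o} := by
      rintro _ ⟨a, rfl⟩
      refine ⟨?_, ?_⟩
      · show t • ((a : G) • γ) = (a : G) • γ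
        rw [← mul_smul, AA_comm a.2 (mem_PP_of hto (El2.of_sq ht2)), mul_smul, hγ]
      · intro e
        have h4 : (a : G) • γ = o := e
        exact hγo (MulAction.injective (a : G) (h4.trans (PP_le_stab o a.2.1).symm))
    have h4 : orbit (AA G o) γ = {ω | t • ω = ω} \ {o} := by
      apply Set.eq_of_subset_of_ncard_le h3 _ (Set.toFinite _)
      rw [h2, Set.ncard_sdiff_singleton_of_mem (show o ∈ {ω | t • ω = ω} from hto)]
      have h5 : ({ω | t • ω = ω} : Set Ω).ncard = nf G Ω t := (Nat.card_coe_set_eq _).symm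
      rw [h5, h1]
      omega
    have h5 : γ' ∈ {ω | t • ω = ω} \ {o} := ⟨hγ', hγo'⟩
    rw [← h4] at h5
    obtain ⟨a, ha⟩ := h5
    exact ⟨a.1, a.2, ha⟩
  · rw [hcard, hn, Nat.add_sub_cancel]

end

end Cfsg.Agent.H27.SB
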