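import Cfsg.Agent.H27.SB3

/-!
# The normaliser of `A × R`
-/

set_option autoImplicit false
set_option linter.unusedVariables false
set_option linter.unusedSectionVars false

namespace Cfsg.Agent.H27.SB

open MulAction Subgroup

universe u v

section gen
variable {G : Type*} [Group G]

/-- normaliser condition for 2-groups -/
theorem exists_norm [Finite G] {S K : Subgroup G} (hS : IsPGroup 2 S) (hKS : K ≤ S) (hne : K ≠ S) :
    ∃ g ∈ S, g ∉ K ∧ ∀ x ∈ K, g * x * g⁻¹ ∈ K := by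
  have := Fact.mk Nat.prime_two
  have hnil : Group.IsNilpotent S := hS.isNilpotent
  have hlt : K.subgroupOf S < ⊤ := by
    rw [lt_top_iff_ne_top]
    intro h
    rw [Subgroup.subgroupOf_eq_top] at h
    exact hne (le_antisymm hKS h)
  have h1 := Group.normalizerCondition_of_isNilpotent (G := S) (K.subgroupOf S) hlt
  obtain ⟨g, hg1, hg2⟩ := SetLike.exists_of_lt h1
  refine ⟨g.1, g.2, fun h => hg2 h, ?_⟩
  intro x hx
  exact (Subgroup.mem_normalizer_iff.1 hg1 ⟨x, hKS hx⟩).1 hx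

theorem comm_of_sq {K : Subgroup G} (h : ∀ x ∈ K, x * x = 1) {x y : G} (hx : x ∈ K) (hy : y ∈ K) : x * y = y * x := by
  have h1 := h _ (mul_mem hx hy)
  have hxi : x⁻¹ = x := inv_eq_of_mul_eq_one_left (h x hx)
  have hyi : y⁻¹ = y := inv_eq_of_mul_eq_one_left (h y hy)
  have h2 : (x * y)⁻¹ = x * y := inv_eq_of_mul_eq_one_left h1
  rw [← h2, mul_inv_rev, hxi, hyi]

theorem map_conj_eq [Finite G] {K : Subgroup G} {g : G} (h : K ≤ K.map (MulAut.conj g).toMonoidHom) :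
    K = K.map (MulAut.conj g).toMonoidHom := by
  apply Subgroup.eq_of_le_of_card_ge h
  rw [Subgroup.card_map_of_injective (MulAut.conj g).injective]

end gen

/-- `A R` -/
def WW (G : Type*) [Group G] {Ω : Type*} [MulAction G Ω] (o β : Ω) : Subgroup G where
  carrier := {w | ∃ a ∈ AA G o, ∃ r ∈ PP G o ⊓ PP G β, w = a * r}
  one_mem' := ⟨1, one_mem _, 1, one_mem _, by simp⟩
  mul_mem' := by
    rintro _ _ ⟨a, ha, r, hr, rfl⟩ ⟨a', ha', r', hr', rfl⟩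
    refine ⟨a * a', mul_mem ha ha', r * r', mul_mem hr hr', ?_⟩
    calc a * r * (a' * r') = a * (r * a') * r' := by group
      _ = a * a' * (r * r') := by rw [AA_comm ha' hr.1]; group
  inv_mem' := by
    rintro _ ⟨a, ha, r, hr, rfl⟩
    refine ⟨a⁻¹, inv_mem ha, r⁻¹, inv_mem hr, ?_⟩
    rw [mul_inv_rev, AA_comm (inv_mem ha) (inv_mem hr.1)]

variable {G : Type u} [Group G] [Finite G] {Ω : Type v} [MulAction G Ω] [Finite Ω] {o β : Ω}

theorem A_le_W : AA G o ≤ WW G o β := fun a ha => ⟨a, ha, 1, one_mem _, by simp⟩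

theorem R_le_W : PP G o ⊓ PP G β ≤ WW G o β := fun r hr => ⟨1, one_mem _, r, hr, by simp⟩

theorem W_le_S : WW G o β ≤ PP G o := by
  rintro _ ⟨a, ha, r, hr, rfl⟩
  exact mul_mem ha.1 hr.1

/-- the centraliser of `R` in `G_o` -/
def XX (G : Type*) [Group G] {Ω : Type*} [MulAction G Ω] (o β : Ω) : Subgroup G where
  carrier := {x | x • o = o ∧ ∀ r ∈ PP G o ⊓ PP G β, x * r = r * x}
  one_mem' := ⟨one_smul _ _, by simp⟩
  mul_mem' := by
    rintro x y ⟨hx, hx2⟩ ⟨hy, hy2⟩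
    refine ⟨by rw [mul_smul, hy, hx], ?_⟩
    intro r hr
    calc x * y * r = x * (y * r) := by group
      _ = (x * r) * y := by rw [hy2 r hr]; group
      _ = r * (x * y) := by rw [hx2 r hr]; group
  inv_mem' := by
    rintro x ⟨hx, hx2⟩
    refine ⟨by rw [inv_smul_eq_iff, hx], ?_⟩
    intro r hr
    calc x⁻¹ * r = x⁻¹ * (r * x) * x⁻¹ := by group
      _ = r * x⁻¹ := by rw [← hx2 r hr]; group

/-- the normaliser of `W` in `S` -/
def YY (G : Type*) [Group G] {Ω : Type*} [MulAction G Ω] (o β : Ω) : Subgroup G :=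
  PP G o ⊓ normalizer (WW G o β : Set G)

theorem X_A {x a : G} (hx : x ∈ XX G o β) (ha : a ∈ AA G o) : x * a * x⁻¹ ∈ AA G o := by
  have := conj_mem_AA ha x
  rwa [hx.1] at this

theorem X_S {x s : G} (hx : x ∈ XX G o β) (hs : s ∈ PP G o) : x * s * x⁻¹ ∈ PP G o := by
  have := conj_mem_PP hs x
  rwa [hx.1] at this

theorem X_R {x r : G} (hx : x ∈ XX G o β) (hr : r ∈ PP G o ⊓ PP G β) : x * r * x⁻¹ = r := by
  rw [hx.2 r hr]; group

/-- `X` acts trivially on `W / A` -/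
theorem X_W {x w : G} (hx : x ∈ XX G o β) (hw : w ∈ WW G o β) : ∃ a ∈ AA G o, x * w * x⁻¹ = w * a := by
  obtain ⟨a, ha, r, hr, rfl⟩ := hw
  refine ⟨a⁻¹ * (x * a * x⁻¹), mul_mem (inv_mem ha) (X_A hx ha), ?_⟩
  have h1 : r * (a⁻¹ * (x * a * x⁻¹)) = (a⁻¹ * (x * a * x⁻¹)) * r :=
    AA_comm (mul_mem (inv_mem ha) (X_A hx ha)) hr.1
  calc x * (a * r) * x⁻¹ = (x * a * x⁻¹) * (x * r * x⁻¹) := by group
    _ = (x * a * x⁻¹) * r := by rw [X_R hx hr]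
    _ = a * ((a⁻¹ * (x * a * x⁻¹)) * r) := by group
    _ = a * r * (a⁻¹ * (x * a * x⁻¹)) := by rw [← h1]; group

theorem X_W' {x w : G} (hx : x ∈ XX G o β) (hw : w ∈ WW G o β) : x * w * x⁻¹ ∈ WW G o β := by
  obtain ⟨a, ha, h⟩ := X_W hx hw
  rw [h]
  exact mul_mem hw (A_le_W ha)

theorem Y_W {y w : G} (hy : y ∈ YY G o β) (hw : w ∈ WW G o β) : y * w * y⁻¹ ∈ WW G o β :=
  (Subgroup.mem_normalizer_iff.1 hy.2 w).1 hw

theorem Y_W' {y w : G} (hy : y ∈ YY G o β) (hw : w ∈ WW G o β) : y⁻¹ * w * y ∈ WW G o β := by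
  have := Y_W (inv_mem hy) hw
  rwa [inv_inv] at this

theorem Y_A {y a : G} (hy : y ∈ YY G o β) (ha : a ∈ AA G o) : y * a * y⁻¹ = a := by
  rw [AA_comm ha hy.1]; group

theorem mem_Y_of {y : G} (hS : y ∈ PP G o) (hW : ∀ w ∈ WW G o β, y * w * y⁻¹ ∈ WW G o β) : y ∈ YY G o β := by
  refine ⟨hS, ?_⟩
  have h1 : (WW G o β).map (MulAut.conj y).toMonoidHom ≤ WW G o β := by
    rintro _ ⟨w, hw, rfl⟩
    exact hW w hw
  have h2 : (WW G o β).map (MulAut.conj y).toMonoidHom = WW G o β := by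
    apply Subgroup.eq_of_le_of_card_ge h1
    rw [Subgroup.card_map_of_injective (MulAut.conj y).injective]
  show y ∈ Subgroup.normalizer (WW G o β : Set G)
  rw [Subgroup.mem_normalizer_iff]
  intro w
  refine ⟨hW w, fun hw => ?_⟩
  rw [← h2] at hw
  obtain ⟨w', hw', h3⟩ := hw
  have h4 : y * w' * y⁻¹ = y * w * y⁻¹ := h3
  have h5 : w' = w := by
    have e1 : y⁻¹ * (y * w' * y⁻¹) * y = w' := by group
    have e2 : y⁻¹ * (y * w * y⁻¹) * y = w := by group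
    rw [← e1, ← e2, h4]
  rw [← h5]; exact hw'

theorem X_Y {x y : G} (hx : x ∈ XX G o β) (hy : y ∈ YY G o β) : x * y * x⁻¹ ∈ YY G o β := by
  apply mem_Y_of (X_S hx hy.1)
  intro w hw
  have h1 : x⁻¹ * w * x ∈ WW G o β := by
    have := X_W' (inv_mem hx) hw
    rwa [inv_inv] at this
  have h2 := X_W' hx (Y_W hy h1)
  have e : x * y * x⁻¹ * w * (x * y * x⁻¹)⁻¹ = x * (y * (x⁻¹ * w * x) * y⁻¹) * x⁻¹ := by group
  rwa [e]

section

variable (C : Cfg2 G o β)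
include C

theorem A_R {a : G} (ha : a ∈ AA G o) (har : a ∈ PP G o ⊓ PP G β) : a = 1 := by
  by_contra hne
  exact C.hob (C.h.semi o a β ha hne (PP_le_stab β har.2)).symm

theorem mem_R_of {s : G} (hs : s ∈ PP G o) (hsb : s • β = β) : s ∈ PP G o ⊓ PP G β :=
  ⟨hs, mem_PP_of hsb ((mem_PP C.h).1 hs).2⟩

theorem smul_ne {s : G} (hs : s ∈ PP G o) {γ : Ω} (hγ : γ ≠ o) : s • γ ≠ o := fun e =>
  hγ (MulAction.injective s (e.trans (PP_le_stab o hs).symm))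

theorem mem_W_of_fix {t s : G} (ht : t * t = 1) (ht1 : t ≠ 1) (hto : t • o = o) (htb : t • β = β)
    (hs : s ∈ PP G o) (hts : t • s • β = s • β) : s ∈ WW G o β := by
  obtain ⟨a, ha, h1⟩ := C.orb t ht ht1 hto β (s • β) (Ne.symm C.hob) (smul_ne C hs (Ne.symm C.hob)) htb hts
  refine ⟨a, ha, a⁻¹ * s, ?_, by group⟩
  apply mem_R_of C (mul_mem (inv_mem ha.1) hs)
  rw [mul_smul, inv_smul_eq_iff, h1]

theorem cent1 {u s : G} (hu : u ∈ PP G o ⊓ PP G β) (hu2 : u * u = 1) (hu1 : u ≠ 1) (hs : s ∈ PP G o)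
    (hc : s * u = u * s) : s ∈ WW G o β := by
  apply mem_W_of_fix C hu2 hu1 (PP_le_stab o hu.1) (PP_le_stab β hu.2) hs
  rw [← mul_smul, ← hc, mul_smul, PP_le_stab β hu.2]

theorem TI0 {g u : G} (hg : g ∈ PP G o) (hgW : g ∉ WW G o β) (hu : u ∈ PP G o ⊓ PP G β) (hu2 : u * u = 1)
    (hgu : g⁻¹ * u * g ∈ PP G o ⊓ PP G β) : u = 1 := by
  by_contra hu1
  apply hgW
  apply mem_W_of_fix C hu2 hu1 (PP_le_stab o hu.1) (PP_le_stab β hu.2) hg
  have h1 := PP_le_stab β hgu.2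
  rw [mul_smul, mul_smul, inv_smul_eq_iff] at h1
  exact h1

theorem TI {g x : G} (hg : g ∈ PP G o) (hgW : g ∉ WW G o β) (hx : x ∈ PP G o ⊓ PP G β)
    (hgx : g⁻¹ * x * g ∈ PP G o ⊓ PP G β) : x = 1 := by
  obtain ⟨k, hk⟩ := ((mem_PP C.h).1 hx.1).2
  induction k with
  | zero => simpa using hk
  | succ k ih =>
    apply ih
    have e : g⁻¹ * x ^ 2 ^ k * g = (g⁻¹ * x * g) ^ 2 ^ k := by
      have := conj_pow (i := 2 ^ k) (a := g⁻¹) (b := x)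
      rw [inv_inv] at this
      exact this.symm
    apply TI0 C hg hgW (pow_mem hx _)
    · rw [← pow_add, ← two_mul, ← pow_succ']; exact hk
    · rw [e]; exact pow_mem hgx _

theorem card_W : Nat.card (WW G o β) = Nat.card (AA G o) * Nat.card ↥(PP G o ⊓ PP G β) := by
  rw [← Nat.card_prod]
  symm
  apply Nat.card_congr
  refine Equiv.ofBijective (fun p => ⟨p.1.1 * p.2.1, p.1.1, p.1.2, p.2.1, p.2.2, rfl⟩) ⟨?_, ?_⟩
  · rintro ⟨a, r⟩ ⟨a', r'⟩ h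
    have h1 : a.1 * r.1 = a'.1 * r'.1 := congrArg Subtype.val h
    have h2 : a'.1⁻¹ * a.1 = r'.1 * r.1⁻¹ := by
      have : a.1 = a'.1 * r'.1 * r.1⁻¹ := by rw [← h1]; group
      rw [this]; group
    have h3 : a'.1⁻¹ * a.1 = 1 := by
      apply A_R C (mul_mem (inv_mem a'.2) a.2)
      rw [h2]
      exact mul_mem r'.2 (inv_mem r.2)
    have h4 : a = a' := Subtype.ext (inv_mul_eq_one.1 h3).symm
    subst h4
    have h5 : r = r' := Subtype.ext (mul_left_cancel h1)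
    rw [h5]
  · rintro ⟨w, a, ha, r, hr, rfl⟩
    exact ⟨(⟨a, ha⟩, ⟨r, hr⟩), rfl⟩

theorem W_ne_S : WW G o β ≠ PP G o := by
  intro h
  have h1 := card_W C
  rw [h, C.card] at h1
  have hq := C.q4
  have hr : 0 < Nat.card ↥(PP G o ⊓ PP G β) := Nat.card_pos
  have h2 : Nat.card (AA G o) ^ 3 = Nat.card (AA G o) := by
    apply Nat.eq_of_mul_eq_mul_left hr
    rw [h1, mul_comm]
  have h3 : Nat.card (AA G o) * (Nat.card (AA G o) * Nat.card (AA G o)) = Nat.card (AA G o) * 1 := by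
    calc Nat.card (AA G o) * (Nat.card (AA G o) * Nat.card (AA G o)) = Nat.card (AA G o) ^ 3 := by ring
      _ = Nat.card (AA G o) * 1 := by rw [h2, mul_one]
  have h4 := Nat.eq_of_mul_eq_mul_left (by omega) h3
  nlinarith

/-- `R` has exponent two -/
theorem sqR {r : G} (hr : r ∈ PP G o ⊓ PP G β) : r * r = 1 := by
  obtain ⟨g, hg, hgW, hn⟩ := exists_norm (isPGroup_PP C.h o) W_le_S (W_ne_S C)
  obtain ⟨a, ha, r', hr', h1⟩ := hn r (R_le_W hr)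
  have h2 : (g * r * g⁻¹) * (g * r * g⁻¹) = r' * r' := by
    rw [h1]
    calc a * r' * (a * r') = a * (r' * a) * r' := by group
      _ = (a * a) * (r' * r') := by rw [AA_comm ha hr'.1]; group
      _ = r' * r' := by rw [AA_sq ha, one_mul]
  have h3 : g * (r * r) * g⁻¹ = r' * r' := by rw [← h2]; group
  have h4 : r' * r' = 1 := by
    apply TI C hg hgW (mul_mem hr' hr')
    have : g⁻¹ * (r' * r') * g = r * r := by rw [← h3]; group
    rw [this]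
    exact mul_mem hr hr
  have : r * r = g⁻¹ * (g * (r * r) * g⁻¹) * g := by group
  rw [this, h3, h4]; group

theorem sqW {w : G} (hw : w ∈ WW G o β) : w * w = 1 := by
  obtain ⟨a, ha, r, hr, rfl⟩ := hw
  calc a * r * (a * r) = a * (r * a) * r := by group
    _ = (a * a) * (r * r) := by rw [AA_comm ha hr.1]; group
    _ = 1 := by rw [AA_sq ha, sqR C hr, one_mul]

theorem commW {w w' : G} (hw : w ∈ WW G o β) (hw' : w' ∈ WW G o β) : w * w' = w' * w :=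
  comm_of_sq (fun x hx => sqW C hx) hw hw'

theorem W_le_X : WW G o β ≤ XX G o β := fun w hw =>
  ⟨PP_le_stab o (W_le_S hw), fun r hr => commW C hw (R_le_W hr)⟩

theorem W_le_Y : WW G o β ≤ YY G o β := by
  intro w hw
  apply mem_Y_of (W_le_S hw)
  intro w' hw'
  exact mul_mem (mul_mem hw hw') (inv_mem hw)

theorem centW {w s : G} (hw : w ∈ WW G o β) (hwA : w ∉ AA G o) (hs : s ∈ PP G o) (hc : s * w = w * s) :
    s ∈ WW G o β := by
  obtain ⟨a, ha, r, hr, hwe⟩ := id hw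
  have hr1 : r ≠ 1 := by
    rintro rfl
    apply hwA
    rw [hwe, mul_one]; exact ha
  obtain ⟨γ, hγo, hγ⟩ := C.nf_add r a (sqR C hr) hr1 (PP_le_stab o hr.1) ⟨β, Ne.symm C.hob, PP_le_stab β hr.2⟩ ha
  rw [AA_comm ha hr.1, ← hwe] at hγ
  obtain ⟨s₀, hs₀, hs₀b⟩ := C.trans γ hγo
  have hu : s₀⁻¹ * w * s₀ ∈ PP G o ⊓ PP G β := by
    apply mem_R_of C (mul_mem (mul_mem (inv_mem hs₀) (W_le_S hw)) hs₀)
    rw [mul_smul, mul_smul, hs₀b, hγ, ← hs₀b, inv_smul_smul]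
  have hu1 : s₀⁻¹ * w * s₀ ≠ 1 := by
    intro e
    apply hwA
    have : w = s₀ * (s₀⁻¹ * w * s₀) * s₀⁻¹ := by group
    rw [this, e]
    simp [one_mem]
  have key : ∀ z ∈ PP G o, z * w = w * z → s₀⁻¹ * z * s₀ ∈ WW G o β := by
    intro z hz hzc
    apply cent1 C hu (sqR C hu) hu1 (mul_mem (mul_mem (inv_mem hs₀) hz) hs₀)
    calc s₀⁻¹ * z * s₀ * (s₀⁻¹ * w * s₀) = s₀⁻¹ * (z * w) * s₀ := by group
      _ = s₀⁻¹ * w * s₀ * (s₀⁻¹ * z * s₀) := by rw [hzc]; group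
  have hle : WW G o β ≤ (WW G o β).map (MulAut.conj s₀).toMonoidHom := by
    intro z hz
    refine ⟨s₀⁻¹ * z * s₀, key z (W_le_S hz) (commW C hz hw), ?_⟩
    show s₀ * (s₀⁻¹ * z * s₀) * s₀⁻¹ = z
    group
  rw [map_conj_eq hle]
  refine ⟨s₀⁻¹ * s * s₀, key s hs hc, ?_⟩
  show s₀ * (s₀⁻¹ * s * s₀) * s₀⁻¹ = s
  group

theorem exists_AA_ne (γ : Ω) : ∃ z ∈ AA G γ, z ≠ 1 := by
  by_contra hc
  push Not at hc
  have h1 : AA G γ = ⊥ := by
    rw [eq_bot_iff]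
    intro z hz
    exact hc z hz
  have hq := C.q4
  rw [card_AA C.h o γ, h1, Subgroup.card_bot] at hq
  omega

/-- `X` is transitive on `A \ {1}` -/
theorem trA {a a' : G} (ha : a ∈ AA G o) (ha1 : a ≠ 1) (ha' : a' ∈ AA G o) (ha1' : a' ≠ 1) :
    ∃ x ∈ XX G o β, x * a * x⁻¹ = a' := by
  obtain ⟨b, hb, hb1⟩ := exists_AA_ne C β
  obtain ⟨c, hc, hco, hcc⟩ := exists_conj C.h C.hob ha hb ha1 hb1
  obtain ⟨d, hd, hdo, hdd⟩ := exists_conj C.h (Ne.symm C.hob) hb ha' hb1 ha1'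
  refine ⟨d * c, ⟨by rw [mul_smul, hco, hdo], ?_⟩, ?_⟩
  · intro r hr
    have hra : r * a = a * r := AA_comm ha hr.1
    have hra' : r * a' = a' * r := AA_comm ha' hr.1
    have hrb : r * b = b * r := AA_comm hb hr.2
    have h1 := hcc r hra hrb
    have h2 := hdd r hrb hra'
    calc d * c * r = d * (c * r) := by group
      _ = (d * r) * c := by rw [← h1]; group
      _ = r * (d * c) := by rw [← h2]; group
  · calc d * c * a * (d * c)⁻¹ = d * (c * a * c⁻¹) * d⁻¹ := by group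
      _ = a' := by rw [hc, hd]

/-- `u A` meets `y R y⁻¹` -/
theorem exists_uA {y u : G} (hy : y ∈ YY G o β) (hu : u ∈ PP G o ⊓ PP G β) :
    ∃ a ∈ AA G o, ∃ r ∈ PP G o ⊓ PP G β, y * r * y⁻¹ = u * a := by
  obtain ⟨a, ha, r, hr, h1⟩ := Y_W' hy (R_le_W hu)
  refine ⟨a⁻¹, inv_mem ha, r, hr, ?_⟩
  have h2 : r = a⁻¹ * (y⁻¹ * u * y) := by rw [h1]; group
  rw [h2]
  calc y * (a⁻¹ * (y⁻¹ * u * y)) * y⁻¹ = (y * a⁻¹ * y⁻¹) * u := by group
    _ = a⁻¹ * u := by rw [Y_A hy (inv_mem ha)]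
    _ = u * a⁻¹ := (AA_comm (inv_mem ha) hu.1).symm

theorem uA_ne {y u a r : G} (hy : y ∈ YY G o β) (hyW : y ∉ WW G o β) (hu : u ∈ PP G o ⊓ PP G β) (hu1 : u ≠ 1)
    (hr : r ∈ PP G o ⊓ PP G β) (h : y * r * y⁻¹ = u * a) : a ≠ 1 := by
  rintro rfl
  rw [mul_one] at h
  apply hu1
  apply TI C hy.1 hyW hu
  have : y⁻¹ * u * y = r := by rw [← h]; group
  rw [this]; exact hr

/-- transitivity of `X` on the nontrivial cosets of `W` in `Y` -/
theorem T1 {u : G} (hu : u ∈ PP G o ⊓ PP G β) (hu1 : u ≠ 1) {y y' : G} (hy : y ∈ YY G o β) (hyW : y ∉ WW G o β)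
    (hy' : y' ∈ YY G o β) (hyW' : y' ∉ WW G o β) : ∃ x ∈ XX G o β, (x * y * x⁻¹)⁻¹ * y' ∈ WW G o β := by
  obtain ⟨a, ha, r, hr, h1⟩ := exists_uA C hy hu
  obtain ⟨a', ha', r', hr', h1'⟩ := exists_uA C hy' hu
  have ha1 := uA_ne C hy hyW hu hu1 hr h1
  have ha1' := uA_ne C hy' hyW' hu hu1 hr' h1'
  obtain ⟨x, hx, hxa⟩ := trA C ha ha1 ha' ha1'
  refine ⟨x, hx, ?_⟩
  by_contra hcon
  have h2 : (x * y * x⁻¹) * r * (x * y * x⁻¹)⁻¹ = u * a' := by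
    calc (x * y * x⁻¹) * r * (x * y * x⁻¹)⁻¹ = x * (y * (x⁻¹ * r * x⁻¹⁻¹) * y⁻¹) * x⁻¹ := by group
      _ = x * (y * r * y⁻¹) * x⁻¹ := by rw [X_R (inv_mem hx) hr]
      _ = (x * u * x⁻¹) * (x * a * x⁻¹) := by rw [h1]; group
      _ = u * a' := by rw [X_R hx hu, hxa]
  have h3 : ((x * y * x⁻¹)⁻¹ * y')⁻¹ * r * ((x * y * x⁻¹)⁻¹ * y') = r' := by
    calc ((x * y * x⁻¹)⁻¹ * y')⁻¹ * r * ((x * y * x⁻¹)⁻¹ * y')
        = y'⁻¹ * ((x * y * x⁻¹) * r * (x * y * x⁻¹)⁻¹) * y' := by group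
      _ = y'⁻¹ * (y' * r' * y'⁻¹) * y' := by rw [h2, h1']
      _ = r' := by group
  have h4 : r = 1 := by
    apply TI C (mul_mem (inv_mem (X_Y hx hy).1) hy'.1) hcon hr
    rw [h3]; exact hr'
  rw [h4] at h1
  have h5 : u * a = 1 := by rw [← h1]; group
  apply hu1
  apply A_R C _ hu
  rw [eq_inv_of_mul_eq_one_left h5]
  exact inv_mem ha

/-- every nontrivial element of `A` occurs -/
theorem exists_y {u : G} (hu : u ∈ PP G o ⊓ PP G β) (hu1 : u ≠ 1) {a : G} (ha : a ∈ AA G o) (ha1 : a ≠ 1) :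
    ∃ y ∈ YY G o β, y ∉ WW G o β ∧ ∃ r ∈ PP G o ⊓ PP G β, y * r * y⁻¹ = u * a := by
  obtain ⟨g, hg, hgW, hn⟩ := exists_norm (isPGroup_PP C.h o) W_le_S (W_ne_S C)
  have hgY := mem_Y_of hg hn
  obtain ⟨b, hb, r, hr, h1⟩ := exists_uA C hgY hu
  have hb1 := uA_ne C hgY hgW hu hu1 hr h1
  obtain ⟨x, hx, hxa⟩ := trA C hb hb1 ha ha1
  refine ⟨x * g * x⁻¹, X_Y hx hgY, ?_, r, hr, ?_⟩
  · intro hc
    apply hgW
    have := X_W' (inv_mem hx) hc
    have e : x⁻¹ * (x * g * x⁻¹) * x⁻¹⁻¹ = g := by group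
    rwa [e] at this
  · calc (x * g * x⁻¹) * r * (x * g * x⁻¹)⁻¹ = x * (g * (x⁻¹ * r * x⁻¹⁻¹) * g⁻¹) * x⁻¹ := by group
      _ = x * (g * r * g⁻¹) * x⁻¹ := by rw [X_R (inv_mem hx) hr]
      _ = (x * u * x⁻¹) * (x * b * x⁻¹) := by rw [h1]; group
      _ = u * a := by rw [X_R hx hu, hxa]

/-- a nontrivial element of `A` different from a given one -/
theorem exists_a_ne (b : G) : ∃ a ∈ AA G o, a ≠ 1 ∧ a ≠ b := by
  classical
  by_contra hc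
  push Not at hc
  have := Fintype.ofFinite (AA G o)
  have hq := C.q4
  have h1 : ((Finset.univ : Finset (AA G o)).image Subtype.val) ⊆ {1, b} := by
    intro z hz
    obtain ⟨y, -, rfl⟩ := Finset.mem_image.1 hz
    rw [Finset.mem_insert, Finset.mem_singleton]
    by_cases hy : (y : G) = 1
    · exact Or.inl hy
    · exact Or.inr (hc y.1 y.2 hy)
  have h2 := Finset.card_le_card h1
  rw [Finset.card_image_of_injective _ Subtype.val_injective, Finset.card_univ] at h2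
  have h3 : ({1, b} : Finset G).card ≤ 2 := Finset.card_le_two
  rw [Nat.card_eq_fintype_card] at hq
  omega

/-- `Y` acts trivially on `W / A` -/
theorem act_trivial {u : G} (hu : u ∈ PP G o ⊓ PP G β) (hu1 : u ≠ 1) {y : G} (hy : y ∈ YY G o β) {w : G}
    (hw : w ∈ WW G o β) : ∃ a ∈ AA G o, y * w * y⁻¹ = w * a := by
  by_cases hyW : y ∈ WW G o β
  · exact ⟨1, one_mem _, by rw [commW C hyW hw]; group⟩
  -- all nontrivial cosets act in the same way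
  have step1 : ∀ z z' : G, z ∈ YY G o β → z ∉ WW G o β → z' ∈ YY G o β → z' ∉ WW G o β → ∀ w ∈ WW G o β,
      ∃ a ∈ AA G o, z' * w * z'⁻¹ = (z * w * z⁻¹) * a := by
    intro z z' hz hzW hz' hzW' w hw
    obtain ⟨x, hx, hxW⟩ := T1 C hu hu1 hz hzW hz' hzW'
    set w₁ := (x * z * x⁻¹)⁻¹ * z' with hw₁
    have e1 : z' = x * z * x⁻¹ * w₁ := by rw [hw₁]; group
    have e2 : w₁ * w * w₁⁻¹ = w := by rw [commW C hxW hw]; group
    obtain ⟨b, hb, hb2⟩ := X_W (inv_mem hx) hw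
    rw [inv_inv] at hb2
    obtain ⟨c, hc, hc2⟩ := X_W hx (Y_W hz hw)
    refine ⟨c * (x * b * x⁻¹), mul_mem hc (X_A hx hb), ?_⟩
    calc z' * w * z'⁻¹ = x * z * x⁻¹ * (w₁ * w * w₁⁻¹) * (x * z * x⁻¹)⁻¹ := by rw [e1]; group
      _ = x * (z * (x⁻¹ * w * x) * z⁻¹) * x⁻¹ := by rw [e2]; group
      _ = x * ((z * w * z⁻¹) * (z * b * z⁻¹)) * x⁻¹ := by rw [hb2]; group
      _ = x * ((z * w * z⁻¹) * b) * x⁻¹ := by rw [Y_A hz hb]
      _ = (x * (z * w * z⁻¹) * x⁻¹) * (x * b * x⁻¹) := by group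
      _ = (z * w * z⁻¹) * (c * (x * b * x⁻¹)) := by rw [hc2]; group
  -- choose another coset
  obtain ⟨a', ha', r', hr', h1'⟩ := exists_uA C (inv_mem hy) hu
  obtain ⟨a, ha, ha1, hne⟩ := exists_a_ne C a'
  obtain ⟨y₁, hy₁, hy₁W, r, hr, h1⟩ := exists_y C hu hu1 ha ha1
  have hprod : y₁ * y ∉ WW G o β := by
    intro hc
    apply hne
    have e1 : y₁ = (y₁ * y) * y⁻¹ := by group
    have e2 : y⁻¹ * r * y⁻¹⁻¹ = u * a := by
      rw [← h1]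
      conv_rhs => rw [e1]
      have h3 : (y₁ * y) * (y⁻¹ * r * y⁻¹⁻¹) = (y⁻¹ * r * y⁻¹⁻¹) * (y₁ * y) :=
        commW C hc (Y_W (inv_mem hy) (R_le_W hr))
      calc y⁻¹ * r * y⁻¹⁻¹ = (y⁻¹ * r * y⁻¹⁻¹) * (y₁ * y) * (y₁ * y)⁻¹ := by group
        _ = (y₁ * y) * (y⁻¹ * r * y⁻¹⁻¹) * (y₁ * y)⁻¹ := by rw [h3]
        _ = (y₁ * y) * y⁻¹ * r * ((y₁ * y) * y⁻¹)⁻¹ := by group
    have e3 : y⁻¹ * (r * r'⁻¹) * y⁻¹⁻¹ = a * a'⁻¹ := by
      calc y⁻¹ * (r * r'⁻¹) * y⁻¹⁻¹ = (y⁻¹ * r * y⁻¹⁻¹) * (y⁻¹ * r' * y⁻¹⁻¹)⁻¹ := by group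
        _ = (u * a) * (u * a')⁻¹ := by rw [e2, h1']
        _ = u * (a * a'⁻¹) * u⁻¹ := by group
        _ = a * a'⁻¹ := by rw [AA_comm (mul_mem ha (inv_mem ha')) hu.1]; group
    have e4 : r * r'⁻¹ = a * a'⁻¹ := by
      calc r * r'⁻¹ = y * (y⁻¹ * (r * r'⁻¹) * y⁻¹⁻¹) * y⁻¹ := by group
        _ = y * (a * a'⁻¹) * y⁻¹ := by rw [e3]
        _ = a * a'⁻¹ := Y_A hy (mul_mem ha (inv_mem ha'))
    have e5 : a * a'⁻¹ = 1 := by
      apply A_R C (mul_mem ha (inv_mem ha'))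
      rw [← e4]
      exact mul_mem hr (inv_mem hr')
    exact mul_inv_eq_one.1 e5
  obtain ⟨b, hb, hb2⟩ := step1 y₁ (y₁ * y) hy₁ hy₁W (mul_mem hy₁ hy) hprod w hw
  refine ⟨b, hb, ?_⟩
  have e6 : y₁ * (y * w * y⁻¹) * y₁⁻¹ = y₁ * (w * b) * y₁⁻¹ := by
    calc y₁ * (y * w * y⁻¹) * y₁⁻¹ = y₁ * y * w * (y₁ * y)⁻¹ := by group
      _ = y₁ * w * y₁⁻¹ * b := hb2
      _ = y₁ * w * y₁⁻¹ * (y₁ * b * y₁⁻¹) := by rw [Y_A hy₁ hb]
      _ = y₁ * (w * b) * y₁⁻¹ := by group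
  have e7 : y₁⁻¹ * (y₁ * (y * w * y⁻¹) * y₁⁻¹) * y₁ = y * w * y⁻¹ := by group
  have e8 : y₁⁻¹ * (y₁ * (w * b) * y₁⁻¹) * y₁ = w * b := by group
  rw [← e7, ← e8, e6]

/-- surjectivity of `y ↦ [y, u]` -/
theorem exists_y' {u : G} (hu : u ∈ PP G o ⊓ PP G β) (hu1 : u ≠ 1) {a : G} (ha : a ∈ AA G o) :
    ∃ y ∈ YY G o β, y * u * y⁻¹ = u * a := by
  by_cases ha1 : a = 1
  · exact ⟨1, one_mem _, by rw [ha1]; group⟩
  obtain ⟨y, hy, -, r, hr, h1⟩ := exists_y C hu hu1 ha ha1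
  obtain ⟨b, hb, h2⟩ := act_trivial C hu hu1 hy (R_le_W hr)
  have h3 : r * b = u * a := by rw [← h2, h1]
  have h4 : u⁻¹ * r = a * b⁻¹ := by
    have : r = u * a * b⁻¹ := by rw [← h3]; group
    rw [this]; group
  have h5 : u⁻¹ * r = 1 := by
    apply A_R C
    · rw [h4]; exact mul_mem ha (inv_mem hb)
    · exact mul_mem (inv_mem hu) hr
  have h6 : u = r := inv_mul_eq_one.1 h5
  subst h6
  exact ⟨y, hy, h1⟩

end

end Cfsg.Agent.H27.SB
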