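import Cfsg.Agent.H27.SB4

/-!
# A complement to `W / A` in `Y / A`
-/

set_option autoImplicit false
set_option linter.unusedVariables false
set_option linter.unusedSectionVars false

namespace Cfsg.Agent.H27.SB

open MulAction Subgroup

section gen

variable {G : Type*} [Group G] [Finite G]

theorem exists_N3 {A W Y X : Subgroup G} (hAW : A ≤ W) (hWY : W ≤ Y) (hWX : W ≤ X)
    (hW2 : IsPGroup 2 W)
    (hXY : ∀ x ∈ X, ∀ y ∈ Y, x * y * x⁻¹ ∈ Y) (hXA : ∀ x ∈ X, ∀ a ∈ A, x * a * x⁻¹ ∈ A)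
    (hYA : ∀ y ∈ Y, ∀ a ∈ A, y * a * y⁻¹ ∈ A)
    (sq : ∀ y ∈ Y, y * y ∈ A) (hXW : ∀ x ∈ X, ∀ w ∈ W, x * w * x⁻¹ * w⁻¹ ∈ A)
    (hodd : Odd (W.subgroupOf X).index)
    (hfix : ∀ y ∈ Y, (∀ x ∈ X, x * y * x⁻¹ * y⁻¹ ∈ A) → y ∈ W) :
    ∃ N : Subgroup G, N ≤ Y ∧ A ≤ N ∧ (∀ w ∈ W, w ∈ N → w ∈ A) ∧ (∀ y ∈ Y, ∃ w ∈ W, y * w⁻¹ ∈ N) ∧
      ∀ x ∈ X, ∀ n ∈ N, x * n * x⁻¹ ∈ N := by
  classical
  have hcomm : ∀ y ∈ Y, ∀ y' ∈ Y, y * y' * y⁻¹ * y'⁻¹ ∈ A := by
    intro y hy y' hy'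
    have h1 := sq _ (mul_mem hy hy')
    have h2 := hYA y'⁻¹ (inv_mem hy') _ (sq y⁻¹ (inv_mem hy))
    have h3 := sq y'⁻¹ (inv_mem hy')
    have e : y * y' * y⁻¹ * y'⁻¹ = (y * y' * (y * y')) * (y'⁻¹ * (y⁻¹ * y⁻¹) * y'⁻¹⁻¹) * (y'⁻¹ * y'⁻¹) := by group
    rw [e]; exact mul_mem (mul_mem h1 h2) h3
  have hAn : (A.subgroupOf Y).Normal := ⟨fun n hn g => hYA g.1 g.2 n.1 hn⟩
  let V := Y ⧸ A.subgroupOf Y
  have hmk : ∀ y y' : Y, y.1 * y'.1⁻¹ ∈ A → (QuotientGroup.mk y : V) = QuotientGroup.mk y' := by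
    intro y y' h
    rw [← div_eq_one]
    have : (QuotientGroup.mk y : V) / QuotientGroup.mk y' = QuotientGroup.mk (y * y'⁻¹) := by
      rw [div_eq_mul_inv]; rfl
    rw [this, QuotientGroup.eq_one_iff]
    exact h
  have hmul : ∀ a b : V, a * b = b * a := by
    intro a b
    induction a using QuotientGroup.induction_on with
    | H y =>
      induction b using QuotientGroup.induction_on with
      | H y' =>
        apply hmk (y * y') (y' * y)
        have : (y * y').1 * (y' * y).1⁻¹ = y.1 * y'.1 * y.1⁻¹ * y'.1⁻¹ := by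
          simp only [Subgroup.coe_mul]; group
        rw [this]
        exact hcomm y.1 y.2 y'.1 y'.2
  let _ : CommGroup V := { (inferInstance : Group V) with mul_comm := hmul }
  have hV2 : ∀ v : V, v * v = 1 := by
    intro v
    induction v using QuotientGroup.induction_on with
    | H y =>
      have : (QuotientGroup.mk y : V) * QuotientGroup.mk y = QuotientGroup.mk (y * y) := rfl
      rw [this, QuotientGroup.eq_one_iff]
      exact sq y.1 y.2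
  have hVodd : ∀ (v : V) (n : ℕ), Odd n → v ^ n = v := by
    intro v n hn
    obtain ⟨k, rfl⟩ := hn
    rw [pow_add, pow_mul, pow_two, hV2, one_pow, one_mul, pow_one]
  -- conjugation
  let cj : X → (Y →* Y) := fun x =>
    { toFun := fun y => ⟨x.1 * y.1 * x.1⁻¹, hXY x.1 x.2 y.1 y.2⟩
      map_one' := by ext; simp
      map_mul' := fun y y' => by
        apply Subtype.ext
        show x.1 * (y.1 * y'.1) * x.1⁻¹ = (x.1 * y.1 * x.1⁻¹) * (x.1 * y'.1 * x.1⁻¹)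
        group }
  have cj_mul : ∀ x x' y, cj (x * x') y = cj x (cj x' y) := by
    intro x x' y
    apply Subtype.ext
    show (x.1 * x'.1) * y.1 * (x.1 * x'.1)⁻¹ = x.1 * (x'.1 * y.1 * x'.1⁻¹) * x.1⁻¹
    group
  have hle : ∀ x, A.subgroupOf Y ≤ (A.subgroupOf Y).comap (cj x) := by
    intro x y hy
    exact hXA x.1 x.2 y.1 hy
  let cV : X → (V →* V) := fun x => QuotientGroup.map _ _ (cj x) (hle x)
  have cV_mk : ∀ x (y : Y), cV x (QuotientGroup.mk y) = (QuotientGroup.mk (cj x y) : V) := fun x y => rfl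
  have cV_W : ∀ (x : X), x.1 ∈ W → ∀ v : V, cV x v = v := by
    intro x hx v
    induction v using QuotientGroup.induction_on with
    | H y =>
      rw [cV_mk]
      exact hmk _ _ (hcomm x.1 (hWY hx) y.1 y.2)
  have cV_mul : ∀ x x' (v : V), cV (x * x') v = cV x (cV x' v) := by
    intro x x' v
    induction v using QuotientGroup.induction_on with
    | H y =>
      rw [cV_mk, cV_mk, cV_mk, cj_mul]
  -- the complement
  have hWn : (W.subgroupOf X).Normal := ⟨fun n hn g => by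
    have h1 := hXW g.1 g.2 n.1 hn
    have h2 : g.1 * n.1 * g.1⁻¹ = (g.1 * n.1 * g.1⁻¹ * n.1⁻¹) * n.1 := by group
    show g.1 * n.1 * g.1⁻¹ ∈ W
    rw [h2]
    exact mul_mem (hAW h1) hn⟩
  have hcop : Nat.Coprime (Nat.card (W.subgroupOf X)) (W.subgroupOf X).index := by
    have := Fact.mk Nat.prime_two
    obtain ⟨k, hk⟩ := IsPGroup.iff_card.1 hW2
    have h1 : Nat.card (W.subgroupOf X) = Nat.card W := Nat.card_congr (Subgroup.subgroupOfEquivOfLe hWX).toEquiv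
    rw [h1, hk]
    exact Nat.Coprime.pow_left k (Nat.coprime_two_left.2 hodd)
  obtain ⟨T, hT⟩ := Subgroup.exists_right_complement'_of_coprime hcop
  have hTodd : Odd (Nat.card T) := by
    rw [← hT.symm.index_eq_card]; exact hodd
  have hTx : ∀ x : X, ∃ w ∈ W.subgroupOf X, ∃ t ∈ T, w * t = x := by
    intro x
    obtain ⟨⟨w, t⟩, h, -⟩ := hT.existsUnique x
    exact ⟨w.1, w.2, t.1, t.2, h⟩
  have := Fintype.ofFinite T
  -- the norm
  let Nm : V →* V := ∏ t : T, cV t.1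
  have Nm_apply : ∀ v : V, Nm v = ∏ t : T, cV t.1 v := by
    intro v
    exact MonoidHom.finsetProd_apply _ _ _
  have Nm_fix : ∀ v : V, (∀ x, cV x v = v) → Nm v = v := by
    intro v hv
    rw [Nm_apply, Finset.prod_congr rfl (fun t _ => hv t.1), Finset.prod_const, Finset.card_univ,
      ← Nat.card_eq_fintype_card]
    exact hVodd v _ hTodd
  have Nm_cV : ∀ (x : X) (v : V), Nm (cV x v) = Nm v := by
    intro x v
    obtain ⟨w, hw, t, ht, rfl⟩ := hTx x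
    have h1 : cV (w * t) v = cV t v := by rw [cV_mul, cV_W w hw]
    rw [h1, Nm_apply, Nm_apply]
    refine Fintype.prod_equiv (Equiv.mulRight (⟨t, ht⟩ : T)) _ _ ?_
    intro t'
    rw [← cV_mul]; rfl
  have cV_Nm : ∀ (x : X) (v : V), cV x (Nm v) = Nm v := by
    intro x v
    obtain ⟨w, hw, t, ht, rfl⟩ := hTx x
    rw [cV_mul, cV_W w hw, Nm_apply, map_prod]
    refine Fintype.prod_equiv (Equiv.mulLeft (⟨t, ht⟩ : T)) _ _ ?_
    intro t'
    rw [← cV_mul]; rfl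
  let mkV : Y →* V := QuotientGroup.mk' _
  refine ⟨((Nm.comp mkV).ker).map Y.subtype, ?_, ?_, ?_, ?_, ?_⟩
  · rintro _ ⟨y, -, rfl⟩
    exact y.2
  · intro a ha
    refine ⟨⟨a, hWY (hAW ha)⟩, ?_, rfl⟩
    rw [SetLike.mem_coe, MonoidHom.mem_ker, MonoidHom.comp_apply]
    have : mkV ⟨a, hWY (hAW ha)⟩ = 1 := (QuotientGroup.eq_one_iff _).2 ha
    rw [this, map_one]
  · rintro w hw ⟨y, hy, rfl⟩
    rw [SetLike.mem_coe, MonoidHom.mem_ker, MonoidHom.comp_apply, Nm_fix] at hy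
    · have h9 : y ∈ A.subgroupOf Y := (QuotientGroup.eq_one_iff y).1 hy
      exact h9
    · intro x
      exact hmk _ _ (hXW x.1 x.2 y.1 hw)
  · intro y hy
    obtain ⟨w, hw⟩ := QuotientGroup.mk_surjective (Nm (mkV ⟨y, hy⟩))
    have hfx : ∀ x, cV x (QuotientGroup.mk w : V) = QuotientGroup.mk w := by
      intro x
      rw [hw, cV_Nm]
    refine ⟨w.1, ?_, ?_⟩
    · apply hfix w.1 w.2
      intro x hx
      have h1 := hfx ⟨x, hx⟩
      rw [cV_mk, QuotientGroup.eq] at h1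
      have h2 : x * w.1 * x⁻¹ * w.1⁻¹ = (x * w.1 * x⁻¹) * (((x * w.1 * x⁻¹)⁻¹ * w.1)⁻¹) * (x * w.1 * x⁻¹)⁻¹ := by group
      rw [h2]
      exact hYA _ (hXY x hx w.1 w.2) _ (inv_mem h1)
    · refine ⟨⟨y, hy⟩ * w⁻¹, ?_, rfl⟩
      rw [SetLike.mem_coe, MonoidHom.mem_ker, MonoidHom.comp_apply, map_mul, map_inv, map_mul, map_inv]
      have h1 : Nm (mkV w) = mkV w := Nm_fix _ hfx
      have h2 : mkV w = Nm (mkV ⟨y, hy⟩) := hw
      rw [h1, h2, mul_inv_cancel]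
  · rintro x hx _ ⟨n, hn, rfl⟩
    refine ⟨cj ⟨x, hx⟩ n, ?_, rfl⟩
    rw [SetLike.mem_coe, MonoidHom.mem_ker, MonoidHom.comp_apply] at hn ⊢
    have : mkV (cj ⟨x, hx⟩ n) = cV ⟨x, hx⟩ (mkV n) := rfl
    rw [this, Nm_cV, hn]

end gen

end Cfsg.Agent.H27.SB
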