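import Cfsg.Agent.H27.SB5

/-!
# The endgame
-/

set_option autoImplicit false
set_option linter.unusedVariables false
set_option linter.unusedSectionVars false

namespace Cfsg.Agent.H27.SB

open MulAction Subgroup

universe u v

/-- transfer of an involution to an abelian group -/
theorem transfer_invol {G : Type*} [Group G] [Finite G] (P : Subgroup G) (hP : Odd P.index) {A : Type*} [CommGroup A]
    (f : P →* A) (u : G) (hu : u ^ 2 = 1) (c : A) (hc : c ^ 2 = 1)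
    (h : ∀ g : G, ∀ hg : g⁻¹ * u * g ∈ P, f ⟨g⁻¹ * u * g, hg⟩ = c) :
    MonoidHom.transfer f u = c := by
  classical
  have : Fintype (Quotient (MulAction.orbitRel (Subgroup.zpowers u) (G ⧸ P))) := Fintype.ofFinite _
  rw [MonoidHom.transfer_eq_prod_quotient_orbitRel_zpowers_quot]
  have aux : ∀ (n : ℕ) (g : G) (_ : n ∣ 2) (hg : g⁻¹ * u ^ n * g ∈ P),
      f ⟨g⁻¹ * u ^ n * g, hg⟩ = c ^ n := by
    intro n g hn hg
    rcases (Nat.dvd_prime Nat.prime_two).1 hn with rfl | rfl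
    · have h3 : (⟨g⁻¹ * u ^ 1 * g, hg⟩ : P) = ⟨g⁻¹ * u * g, by simpa using hg⟩ := by
        apply Subtype.ext
        simp
      rw [h3]
      exact (h g _).trans (pow_one _).symm
    · have h3 : (⟨g⁻¹ * u ^ 2 * g, hg⟩ : P) = 1 := by
        apply Subtype.ext
        change g⁻¹ * u ^ 2 * g = 1
        rw [hu]; group
      rw [h3, map_one, hc]
  have key : ∀ q : Quotient (MulAction.orbitRel (Subgroup.zpowers u) (G ⧸ P)),
      f ⟨q.out.out⁻¹ * u ^ Function.minimalPeriod (u • ·) q.out * q.out.out,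
            QuotientGroup.out_conj_pow_minimalPeriod_mem P u q.out⟩ =
      c ^ Function.minimalPeriod (u • ·) q.out := by
    intro q
    have hdvd : Function.minimalPeriod (u • ·) q.out ∣ 2 := by
      apply Function.IsPeriodicPt.minimalPeriod_dvd
      change (fun x : G ⧸ P => u • x)^[2] q.out = q.out
      simp only [Function.iterate_succ, Function.iterate_zero, Function.comp_apply, id]
      rw [← mul_smul, ← pow_two, hu, one_smul]
    exact aux _ _ hdvd _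
  rw [Finset.prod_congr rfl (fun q _ => key q), Finset.prod_pow_eq_pow_sum]
  rw [← Subgroup.index_eq_sum_minimalPeriod P u]
  obtain ⟨k, hk⟩ := hP
  rw [hk, pow_add, pow_mul, hc, one_pow, one_mul, pow_one]

/-- a group covered by two subgroups -/
theorem le_or_le {G : Type*} [Group G] {H K L : Subgroup G} (h : ∀ x ∈ H, x ∈ K ∨ x ∈ L) : H ≤ K ∨ H ≤ L := by
  by_contra hc
  push Not at hc
  obtain ⟨h1, h2⟩ := hc
  obtain ⟨x, hx, hxK⟩ := SetLike.not_le_iff_exists.1 h1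
  obtain ⟨y, hy, hyL⟩ := SetLike.not_le_iff_exists.1 h2
  have hxL := (h x hx).resolve_left hxK
  have hyK := (h y hy).resolve_right hyL
  rcases h _ (mul_mem hx hy) with h3 | h3
  · apply hxK
    have : x = x * y * y⁻¹ := by group
    rw [this]; exact mul_mem h3 (inv_mem hyK)
  · apply hyL
    have : y = x⁻¹ * (x * y) := by group
    rw [this]; exact mul_mem (inv_mem hxL) h3

variable {G : Type u} [Group G] [Finite G] {Ω : Type v} [MulAction G Ω] [Finite Ω] {o β : Ω}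

section

variable (C : Cfg2 G o β)
include C

theorem WY_conj {y w : G} (hy : y ∈ YY G o β) (hw : w ∈ WW G o β) : y⁻¹ * w * y ∈ WW G o β := Y_W' hy hw

/-- `Y` has only trivial `X`-fixed cosets mod `W` -/
theorem fixY {u : G} (hu : u ∈ PP G o ⊓ PP G β) (hu1 : u ≠ 1) {y : G} (hy : y ∈ YY G o β)
    (h : ∀ x ∈ XX G o β, y⁻¹ * (x * y * x⁻¹) ∈ WW G o β) : y ∈ WW G o β := by
  by_contra hyW
  have key : ∀ y' ∈ YY G o β, y' ∉ WW G o β → y⁻¹ * y' ∈ WW G o β := by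
    intro y' hy' hyW'
    obtain ⟨x, hx, hxW⟩ := T1 C hu hu1 hy hyW hy' hyW'
    have e : y⁻¹ * y' = (y⁻¹ * (x * y * x⁻¹)) * ((x * y * x⁻¹)⁻¹ * y') := by group
    rw [e]
    exact mul_mem (h x hx) hxW
  obtain ⟨a, ha, ha1, -⟩ := exists_a_ne C 1
  obtain ⟨b, hb, hb1, hab⟩ := exists_a_ne C a
  obtain ⟨y₁, hy₁, h1⟩ := exists_y' C hu hu1 ha
  obtain ⟨y₂, hy₂, h2⟩ := exists_y' C hu hu1 hb
  have aux : ∀ z c : G, c ≠ 1 → z * u * z⁻¹ = u * c → z ∉ WW G o β := by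
    intro z c hc hz hzW
    apply hc
    rw [commW C hzW (R_le_W hu)] at hz
    have : u * c = u * 1 := by rw [← hz]; group
    exact mul_left_cancel this
  have h3 := key y₁ hy₁ (aux y₁ a ha1 h1)
  have h4 := key y₂ hy₂ (aux y₂ b hb1 h2)
  have h5 : y₁⁻¹ * y₂ ∈ WW G o β := by
    have : y₁⁻¹ * y₂ = (y⁻¹ * y₁)⁻¹ * (y⁻¹ * y₂) := by group
    rw [this]; exact mul_mem (inv_mem h3) h4
  have h6 : (y₁⁻¹ * y₂) * u * (y₁⁻¹ * y₂)⁻¹ = u := by
    rw [commW C h5 (R_le_W hu)]; group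
  apply hab
  have h7 : u * b = u * a := by
    calc u * b = y₂ * u * y₂⁻¹ := h2.symm
      _ = y₁ * ((y₁⁻¹ * y₂) * u * (y₁⁻¹ * y₂)⁻¹) * y₁⁻¹ := by group
      _ = u * a := by rw [h6, h1]
  exact mul_left_cancel h7

theorem card_Y {u : G} (hu : u ∈ PP G o ⊓ PP G β) (hu1 : u ≠ 1) :
    Nat.card (YY G o β) = Nat.card (AA G o) * Nat.card (WW G o β) := by
  have key : ∀ y ∈ YY G o β, u⁻¹ * (y * u * y⁻¹) ∈ AA G o := by
    intro y hy
    obtain ⟨a, ha, h⟩ := act_trivial C hu hu1 hy (R_le_W hu)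
    rw [h]
    have : u⁻¹ * (u * a) = a := by group
    rwa [this]
  let φ : YY G o β →* AA G o :=
    { toFun := fun y => ⟨u⁻¹ * (y.1 * u * y.1⁻¹), key y.1 y.2⟩
      map_one' := by apply Subtype.ext; simp
      map_mul' := fun y y' => by
        apply Subtype.ext
        show u⁻¹ * (y.1 * y'.1 * u * (y.1 * y'.1)⁻¹) = u⁻¹ * (y.1 * u * y.1⁻¹) * (u⁻¹ * (y'.1 * u * y'.1⁻¹))
        have h1 := Y_A y.2 (key y'.1 y'.2)
        calc u⁻¹ * (y.1 * y'.1 * u * (y.1 * y'.1)⁻¹)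
            = u⁻¹ * (y.1 * u * y.1⁻¹) * (y.1 * (u⁻¹ * (y'.1 * u * y'.1⁻¹)) * y.1⁻¹) := by group
          _ = u⁻¹ * (y.1 * u * y.1⁻¹) * (u⁻¹ * (y'.1 * u * y'.1⁻¹)) := by rw [h1] }
  have hker : φ.ker = (WW G o β).subgroupOf (YY G o β) := by
    ext y
    rw [MonoidHom.mem_ker, Subgroup.mem_subgroupOf]
    constructor
    · intro h
      have h1 : u⁻¹ * (y.1 * u * y.1⁻¹) = 1 := congrArg Subtype.val h
      apply cent1 C hu (sqR C hu) hu1 y.2.1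
      have h2 : y.1 * u * y.1⁻¹ = u := (inv_mul_eq_one.1 h1).symm
      calc y.1 * u = y.1 * u * y.1⁻¹ * y.1 := by group
        _ = u * y.1 := by rw [h2]
    · intro h
      apply Subtype.ext
      show u⁻¹ * (y.1 * u * y.1⁻¹) = 1
      rw [commW C h (R_le_W hu)]; group
  have hsurj : Function.Surjective φ := by
    intro a
    obtain ⟨y, hy, h⟩ := exists_y' C hu hu1 a.2
    refine ⟨⟨y, hy⟩, ?_⟩
    apply Subtype.ext
    show u⁻¹ * (y * u * y⁻¹) = a.1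
    rw [h]; group
  have h1 := φ.ker.card_mul_index
  rw [Subgroup.index_ker, hker, MonoidHom.range_eq_top.2 hsurj, Subgroup.card_top] at h1
  have h2 : Nat.card ((WW G o β).subgroupOf (YY G o β)) = Nat.card (WW G o β) :=
    Nat.card_congr (Subgroup.subgroupOfEquivOfLe (W_le_Y C)).toEquiv
  rw [← h1, h2, mul_comm]

theorem Y_ne_S {u : G} (hu : u ∈ PP G o ⊓ PP G β) (hu1 : u ≠ 1) : YY G o β ≠ PP G o := by
  intro h
  have h1 := card_Y C hu hu1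
  rw [h, card_W C, C.card] at h1
  have hq := C.q4
  have hr : 0 < Nat.card ↥(PP G o ⊓ PP G β) := Nat.card_pos
  have h2 : Nat.card (AA G o) ^ 3 = Nat.card (AA G o) * Nat.card (AA G o) := by
    apply Nat.eq_of_mul_eq_mul_left hr
    rw [h1]; ring
  nlinarith [mul_self_nonneg (Nat.card (AA G o)), Nat.pos_of_ne_zero (by omega : Nat.card (AA G o) ≠ 0)]

/-- an element normalising `Y` but not `W` -/
theorem exists_s {u : G} (hu : u ∈ PP G o ⊓ PP G β) (hu1 : u ≠ 1) :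
    ∃ s ∈ PP G o, s ∉ YY G o β ∧ ∀ w ∈ WW G o β, s * w * s⁻¹ ∈ YY G o β := by
  obtain ⟨s, hs, hsY, h⟩ := exists_norm (isPGroup_PP C.h o) (inf_le_left : YY G o β ≤ PP G o) (Y_ne_S C hu hu1)
  exact ⟨s, hs, hsY, fun w hw => h w (W_le_Y C hw)⟩

/-- squares of elements of `Y` lie in `A` -/
theorem sqY {u : G} (hu : u ∈ PP G o ⊓ PP G β) (hu1 : u ≠ 1) {y : G} (hy : y ∈ YY G o β) : y * y ∈ AA G o := by
  by_cases hyW : y ∈ WW G o β
  · rw [sqW C hyW]; exact one_mem _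
  obtain ⟨s, hs, hsY, h⟩ := exists_s C hu hu1
  have h1 : ∃ w ∈ WW G o β, s * w * s⁻¹ ∉ WW G o β := by
    by_contra hc
    push Not at hc
    exact hsY (mem_Y_of hs hc)
  obtain ⟨w, hw, hwW⟩ := h1
  set x := s * w * s⁻¹ with hx
  have hxY : x ∈ YY G o β := h w hw
  have hx2 : x * x = 1 := by
    calc x * x = s * (w * w) * s⁻¹ := by rw [hx]; group
      _ = 1 := by rw [sqW C hw]; group
  obtain ⟨θ, hθ, hθW⟩ := T1 C hu hu1 hxY hwW hy hyW
  set x' := θ * x * θ⁻¹ with hx'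
  have hx'Y : x' ∈ YY G o β := X_Y hθ hxY
  have hx'2 : x' * x' = 1 := by
    calc x' * x' = θ * (x * x) * θ⁻¹ := by rw [hx']; group
      _ = 1 := by rw [hx2]; group
  have hxi : x'⁻¹ = x' := inv_eq_of_mul_eq_one_left hx'2
  obtain ⟨a, ha, h2⟩ := act_trivial C hu hu1 hx'Y hθW
  have h4 : y * y = a := by
    calc y * y = (x' * (x'⁻¹ * y) * x'⁻¹) * (x' * x') * (x'⁻¹ * y) := by group
      _ = (x'⁻¹ * y) * a * (x'⁻¹ * y) := by rw [h2, hx'2, mul_one]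
      _ = (x'⁻¹ * y) * ((x'⁻¹ * y) * a) := by rw [mul_assoc (x'⁻¹ * y) a, ← AA_comm ha (W_le_S hθW)]
      _ = ((x'⁻¹ * y) * (x'⁻¹ * y)) * a := by simp only [mul_assoc]
      _ = a := by rw [sqW C hθW, one_mul]
  rw [h4]; exact ha

theorem X_odd {u : G} (hu : u ∈ PP G o ⊓ PP G β) (hu1 : u ≠ 1) :
    Odd ((WW G o β).subgroupOf (XX G o β)).index := by
  have hn : ((WW G o β).subgroupOf (XX G o β)).Normal := ⟨fun n hn g => X_W' g.2 hn⟩
  by_contra hodd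
  rw [Nat.not_odd_iff_even, even_iff_two_dvd] at hodd
  have := Fact.mk Nat.prime_two
  rw [Subgroup.index] at hodd
  obtain ⟨z, hz⟩ := exists_prime_orderOf_dvd_card' (G := XX G o β ⧸ (WW G o β).subgroupOf (XX G o β)) 2 hodd
  obtain ⟨x, rfl⟩ := QuotientGroup.mk_surjective z
  have h1 : (QuotientGroup.mk (x ^ 2) : XX G o β ⧸ (WW G o β).subgroupOf (XX G o β)) = 1 := by
    rw [QuotientGroup.mk_pow, ← hz, pow_orderOf_eq_one]
  rw [QuotientGroup.eq_one_iff] at h1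
  have h2 : x.1 ^ 2 ∈ WW G o β := h1
  have h3 : El2 x.1 := ⟨2, by
    have := sqW C h2
    rw [← pow_two, ← pow_mul] at this
    exact this⟩
  have h4 : x.1 ∈ PP G o := mem_PP_of x.2.1 h3
  have h5 : x.1 ∈ WW G o β := cent1 C hu (sqR C hu) hu1 h4 (x.2.2 u hu)
  have h6 : (QuotientGroup.mk x : XX G o β ⧸ (WW G o β).subgroupOf (XX G o β)) = 1 := by
    rw [QuotientGroup.eq_one_iff]; exact h5
  rw [h6, orderOf_one] at hz
  omega

/-- the complement `N` -/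
theorem exN {u : G} (hu : u ∈ PP G o ⊓ PP G β) (hu1 : u ≠ 1) :
    ∃ N : Subgroup G, N ≤ YY G o β ∧ AA G o ≤ N ∧ (∀ w ∈ WW G o β, w ∈ N → w ∈ AA G o) ∧
      (∀ y ∈ YY G o β, ∃ n ∈ N, ∃ r ∈ PP G o ⊓ PP G β, y = n * r) ∧
      ∀ x ∈ XX G o β, ∀ n ∈ N, x * n * x⁻¹ ∈ N := by
  obtain ⟨N, h1, h2, h3, h4, h5⟩ := exists_N3 (A := AA G o) (W := WW G o β) (Y := YY G o β) (X := XX G o β)
    A_le_W (W_le_Y C) (W_le_X C) ((isPGroup_PP C.h o).to_le W_le_S) (fun x hx y hy => X_Y hx hy)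
    (fun x hx a ha => X_A hx ha) (fun y hy a ha => by rw [Y_A hy ha]; exact ha) (fun y hy => sqY C hu hu1 hy)
    (fun x hx w hw => by
      obtain ⟨a, ha, h⟩ := X_W hx hw
      have h1 : w * a * w⁻¹ = a := by rw [AA_comm ha (W_le_S hw)]; group
      rw [h, h1]; exact ha) (X_odd C hu hu1) (by
      intro y hy h
      apply fixY C hu hu1 hy
      intro x hx
      have h1 : y⁻¹ * (x * y * x⁻¹) = y⁻¹ * (x * y * x⁻¹ * y⁻¹) * y⁻¹⁻¹ := by group
      rw [h1, Y_A (inv_mem hy) (h x hx)]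
      exact A_le_W (h x hx))
  refine ⟨N, h1, h2, h3, ?_, h5⟩
  intro y hy
  obtain ⟨w, ⟨a, ha, r, hr, rfl⟩, h⟩ := h4 y hy
  refine ⟨(y * (a * r)⁻¹) * a, mul_mem h (h2 ha), r, hr, ?_⟩
  group

/-- elements of `N` outside `A` are `X`-conjugate mod `A` -/
theorem N_T1 {N : Subgroup G} (hNY : N ≤ YY G o β) (hNW : ∀ w ∈ WW G o β, w ∈ N → w ∈ AA G o)
    (hNX : ∀ x ∈ XX G o β, ∀ n ∈ N, x * n * x⁻¹ ∈ N) {u : G} (hu : u ∈ PP G o ⊓ PP G β) (hu1 : u ≠ 1)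
    {g g' : G} (hg : g ∈ N) (hgA : g ∉ AA G o) (hg' : g' ∈ N) (hgA' : g' ∉ AA G o) :
    ∃ x ∈ XX G o β, ∃ a ∈ AA G o, g' = (x * g * x⁻¹) * a := by
  obtain ⟨x, hx, h⟩ := T1 C hu hu1 (hNY hg) (fun h => hgA (hNW _ h hg)) (hNY hg') (fun h => hgA' (hNW _ h hg'))
  refine ⟨x, hx, (x * g * x⁻¹)⁻¹ * g', hNW _ h (mul_mem (inv_mem (hNX x hx g hg)) hg'), by group⟩

theorem case1 {N : Subgroup G} (hNY : N ≤ YY G o β) (hNW : ∀ w ∈ WW G o β, w ∈ N → w ∈ AA G o)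
    (hNR : ∀ y ∈ YY G o β, ∃ n ∈ N, ∃ r ∈ PP G o ⊓ PP G β, y = n * r)
    (hNX : ∀ x ∈ XX G o β, ∀ n ∈ N, x * n * x⁻¹ ∈ N) {u : G} (hu : u ∈ PP G o ⊓ PP G β) (hu1 : u ≠ 1)
    (hN2 : ∀ g ∈ N, g * g = 1) : False := by
  have h1 : ∀ y ∈ YY G o β, y * y = 1 → y ∈ N ∨ y ∈ WW G o β := by
    intro y hy hy2
    obtain ⟨g, hg, r, hr, rfl⟩ := hNR y hy
    by_cases hr1 : r = 1
    · left; rw [hr1, mul_one]; exact hg
    · right
      refine mul_mem ?_ (R_le_W hr)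
      apply cent1 C hr (sqR C hr) hr1 (hNY hg).1
      have hri : r⁻¹ = r := inv_eq_of_mul_eq_one_left (sqR C hr)
      have hgi : g⁻¹ = g := inv_eq_of_mul_eq_one_left (hN2 g hg)
      calc g * r = (g * r)⁻¹ := (inv_eq_of_mul_eq_one_left hy2).symm
        _ = r * g := by rw [mul_inv_rev, hri, hgi]
  have hNc : ∀ g ∈ N, ∀ g' ∈ N, g * g' = g' * g := fun g hg g' hg' => comm_of_sq hN2 hg hg'
  obtain ⟨s, hs, hsY, h⟩ := exists_s C hu hu1
  have h2 : (WW G o β).map (MulAut.conj s).toMonoidHom ≤ N ∨ (WW G o β).map (MulAut.conj s).toMonoidHom ≤ WW G o β := by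
    apply le_or_le
    rintro _ ⟨w, hw, rfl⟩
    apply h1 _ (h w hw)
    show (s * w * s⁻¹) * (s * w * s⁻¹) = 1
    calc (s * w * s⁻¹) * (s * w * s⁻¹) = s * (w * w) * s⁻¹ := by group
      _ = 1 := by rw [sqW C hw]; group
  have h3 : ∀ w ∈ WW G o β, s * w * s⁻¹ ∈ N := by
    rcases h2 with h2 | h2
    · exact fun w hw => h2 ⟨w, hw, rfl⟩
    · exact absurd (mem_Y_of hs fun w hw => h2 ⟨w, hw, rfl⟩) hsY
  have h4 : s * u * s⁻¹ ∈ N := h3 u (R_le_W hu)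
  have h5 : s * u * s⁻¹ ∈ WW G o β := by
    apply fixY C hu hu1 (hNY h4)
    intro x hx
    set s₁ := x * s * x⁻¹ with hs₁
    have hs₁S : s₁ ∈ PP G o := X_S hx hs
    have hs₁W : ∀ w ∈ WW G o β, s₁ * w * s₁⁻¹ ∈ N := by
      intro w hw
      have e : s₁ * w * s₁⁻¹ = x * (s * (x⁻¹ * w * x⁻¹⁻¹) * s⁻¹) * x⁻¹ := by rw [hs₁]; group
      rw [e]
      exact hNX x hx _ (h3 _ (X_W' (inv_mem hx) hw))
    have hy : s⁻¹ * s₁ ∈ YY G o β := by
      apply mem_Y_of (mul_mem (inv_mem hs) hs₁S)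
      intro w hw
      apply cent1 C hu (sqR C hu) hu1 (mul_mem (mul_mem (mul_mem (inv_mem hs) hs₁S) (W_le_S hw)) (inv_mem (mul_mem (inv_mem hs) hs₁S)))
      have h6 := hNc _ (hs₁W w hw) _ h4
      calc s⁻¹ * s₁ * w * (s⁻¹ * s₁)⁻¹ * u = s⁻¹ * ((s₁ * w * s₁⁻¹) * (s * u * s⁻¹)) * s := by group
        _ = s⁻¹ * ((s * u * s⁻¹) * (s₁ * w * s₁⁻¹)) * s := by rw [h6]
        _ = u * (s⁻¹ * s₁ * w * (s⁻¹ * s₁)⁻¹) := by group
    obtain ⟨a, ha, h7⟩ := act_trivial C hu hu1 hy (R_le_W hu)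
    have h8 : x * (s * u * s⁻¹) * x⁻¹ = (s * u * s⁻¹) * a := by
      calc x * (s * u * s⁻¹) * x⁻¹ = s₁ * (x * u * x⁻¹) * s₁⁻¹ := by rw [hs₁]; group
        _ = s₁ * u * s₁⁻¹ := by rw [X_R hx hu]
        _ = s * ((s⁻¹ * s₁) * u * (s⁻¹ * s₁)⁻¹) * s⁻¹ := by group
        _ = s * (u * a) * s⁻¹ := by rw [h7]
        _ = (s * u * s⁻¹) * (s * a * s⁻¹) := by group
        _ = (s * u * s⁻¹) * a := by rw [AA_comm ha hs]; group
    rw [h8]
    have : (s * u * s⁻¹)⁻¹ * (s * u * s⁻¹ * a) = a := by group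
    rw [this]
    exact A_le_W ha
  have h6 : s * u * s⁻¹ ∈ AA G o := hNW _ h5 h4
  apply hu1
  apply A_R C _ hu
  have h7 : s⁻¹ * (s * u * s⁻¹) * s = s * u * s⁻¹ := by
    have := AA_comm h6 (inv_mem hs)
    rw [this]; group
  have h8 : u = s * u * s⁻¹ := by rw [← h7]; group
  rw [h8]; exact h6

end

end Cfsg.Agent.H27.SB
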