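import Cfsg.Agent.H27.SB6

/-!
# The endgame, second part
-/

set_option autoImplicit false
set_option linter.unusedVariables false
set_option linter.unusedSectionVars false

namespace Cfsg.Agent.H27.SB

open MulAction Subgroup

universe u v

variable {G : Type u} [Group G] [Finite G] {Ω : Type v} [MulAction G Ω] [Finite Ω] {o β : Ω}

section

variable (C : Cfg2 G o β)
include C

/-- counting: the conjugates of `u₀` -/
theorem conj_count {N : Subgroup G} (hNY : N ≤ YY G o β)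
    (hNR : ∀ y ∈ YY G o β, ∃ n ∈ N, ∃ r ∈ PP G o ⊓ PP G β, y = n * r)
    {u : G} (hu : u ∈ PP G o ⊓ PP G β) (hu1 : u ≠ 1)
    (hconj : ∀ g ∈ N, ∃ t ∈ PP G o, t * u * t⁻¹ = g * u) :
    ∀ t ∈ PP G o, ∃ g ∈ N, t * u * t⁻¹ = g * u := by
  classical
  let O : Set G := Set.range (fun t : PP G o => t.1 * u * t.1⁻¹)
  let M : Set G := (fun g => g * u) '' (N : Set G)
  have hMO : M ⊆ O := by
    rintro _ ⟨g, hg, rfl⟩
    obtain ⟨t, ht, h⟩ := hconj g hg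
    exact ⟨⟨t, ht⟩, h⟩
  have hM : Nat.card M = Nat.card N :=
    (Nat.card_congr (Equiv.Set.image (fun g => g * u) (N : Set G) (mul_left_injective u))).symm
  have hO : Nat.card O * Nat.card (WW G o β) ≤ Nat.card (PP G o) := by
    rw [← Nat.card_prod]
    have hch : ∀ x : O, ∃ t : PP G o, t.1 * u * t.1⁻¹ = x.1 := fun x => x.2
    choose f hf using hch
    apply Nat.card_le_card_of_injective (fun p : O × WW G o β => (⟨(f p.1).1 * p.2.1, mul_mem (f p.1).2 (W_le_S p.2.2)⟩ : PP G o))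
    rintro ⟨x, w⟩ ⟨x', w'⟩ h
    have h1 : (f x).1 * w.1 = (f x').1 * w'.1 := congrArg Subtype.val h
    have aux : ∀ (z : O) (v : WW G o β), ((f z).1 * v.1) * u * ((f z).1 * v.1)⁻¹ = z.1 := by
      intro z v
      have h2 : v.1 * u * v.1⁻¹ = u := by rw [commW C v.2 (R_le_W hu)]; group
      calc ((f z).1 * v.1) * u * ((f z).1 * v.1)⁻¹ = (f z).1 * (v.1 * u * v.1⁻¹) * (f z).1⁻¹ := by group
        _ = z.1 := by rw [h2, hf]
    have h3 : x = x' := by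
      apply Subtype.ext
      rw [← aux x w, ← aux x' w', h1]
    subst h3
    have h4 : w = w' := Subtype.ext (mul_left_cancel h1)
    rw [h4]
  have hN : Nat.card (YY G o β) ≤ Nat.card N * Nat.card ↥(PP G o ⊓ PP G β) := by
    rw [← Nat.card_prod]
    have hch : ∀ y : YY G o β, ∃ p : N × ↥(PP G o ⊓ PP G β), y.1 = p.1.1 * p.2.1 := by
      intro y
      obtain ⟨n, hn, r, hr, h⟩ := hNR y.1 y.2
      exact ⟨(⟨n, hn⟩, ⟨r, hr⟩), h⟩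
    choose f hf using hch
    apply Nat.card_le_card_of_injective f
    intro y y' h
    apply Subtype.ext
    rw [hf y, hf y', h]
  have hr : 0 < Nat.card ↥(PP G o ⊓ PP G β) := Nat.card_pos
  have hq := C.q4
  rw [card_Y C hu hu1, card_W C] at hN
  rw [card_W C, C.card] at hO
  have hO' : Nat.card O ≤ Nat.card (AA G o) ^ 2 := by
    apply Nat.le_of_mul_le_mul_right (c := Nat.card (AA G o) * Nat.card ↥(PP G o ⊓ PP G β)) _ (by positivity)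
    calc _ ≤ _ := hO
      _ = _ := by ring
  have hN' : Nat.card (AA G o) ^ 2 ≤ Nat.card N := by
    apply Nat.le_of_mul_le_mul_right (c := Nat.card ↥(PP G o ⊓ PP G β)) _ hr
    calc _ = _ := by ring
      _ ≤ _ := hN
  have hfin : O.Finite := Set.toFinite O
  have hle : O.ncard ≤ M.ncard := by
    rw [← Nat.card_coe_set_eq, ← Nat.card_coe_set_eq, hM]
    exact hO'.trans hN'
  have hEq : M = O := Set.eq_of_subset_of_ncard_le hMO hle hfin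
  intro t ht
  have h1 : t * u * t⁻¹ ∈ O := ⟨⟨t, ht⟩, rfl⟩
  rw [← hEq] at h1
  obtain ⟨g, hg, h2⟩ := h1
  exact ⟨g, hg, h2.symm⟩

theorem final {u : G} (hu : u ∈ PP G o ⊓ PP G β) (hu1 : u ≠ 1) (hidx : Odd (PP G o).index)
    (hG : commutator G = ⊤) : False := by
  obtain ⟨N, hNY, hAN, hNW, hNR, hNX⟩ := exN C hu hu1
  obtain ⟨s, hs, hsY, h⟩ := exists_s C hu hu1
  have hW1 : ∃ w ∈ WW G o β, s * w * s⁻¹ ∉ WW G o β := by
    by_contra hc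
    push Not at hc
    exact hsY (mem_Y_of hs hc)
  obtain ⟨w₀, hw₀, hw₀W⟩ := hW1
  obtain ⟨g, hg, u₀, hu₀, hx⟩ := hNR _ (h w₀ hw₀)
  have hgA : g ∉ AA G o := by
    intro hgA
    apply hw₀W
    rw [hx]; exact mul_mem (A_le_W hgA) (R_le_W hu₀)
  have hx2 : (g * u₀) * (g * u₀) = 1 := by
    rw [← hx]
    calc (s * w₀ * s⁻¹) * (s * w₀ * s⁻¹) = s * (w₀ * w₀) * s⁻¹ := by group
      _ = 1 := by rw [sqW C hw₀]; group
  have hu₀i : u₀⁻¹ = u₀ := inv_eq_of_mul_eq_one_left (sqR C hu₀)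
  have E12 : ∀ g' ∈ N, (g' * u₀) * (g' * u₀) = 1 := by
    intro g' hg'
    by_cases hgA' : g' ∈ AA G o
    · exact sqW C (mul_mem (A_le_W hgA') (R_le_W hu₀))
    obtain ⟨x, hx, a, ha, rfl⟩ := N_T1 C hNY hNW hNX hu hu1 hg hgA hg' hgA'
    have h1 : (x * g * x⁻¹) * a * u₀ = x * (g * u₀) * x⁻¹ * a := by
      calc (x * g * x⁻¹) * a * u₀ = (x * g * x⁻¹) * (a * u₀) := by group
        _ = (x * g * x⁻¹) * ((x * u₀ * x⁻¹) * a) := by rw [← AA_comm ha hu₀.1, X_R hx hu₀]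
        _ = x * (g * u₀) * x⁻¹ * a := by group
    rw [h1]
    have h2 : x * (g * u₀) * x⁻¹ ∈ PP G o := X_S hx (mul_mem (hNY hg).1 hu₀.1)
    calc x * (g * u₀) * x⁻¹ * a * (x * (g * u₀) * x⁻¹ * a)
        = x * (g * u₀) * x⁻¹ * (a * (x * (g * u₀) * x⁻¹)) * a := by group
      _ = x * (g * u₀) * x⁻¹ * ((x * (g * u₀) * x⁻¹) * a) * a := by rw [AA_comm ha h2]
      _ = x * ((g * u₀) * (g * u₀)) * x⁻¹ * (a * a) := by group
      _ = 1 := by rw [hx2, AA_sq ha]; group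
  by_cases hu₀1 : u₀ = 1
  · apply case1 C hNY hNW hNR hNX hu hu1
    intro g' hg'
    have := E12 g' hg'
    rwa [hu₀1, mul_one] at this
  -- the case `u₀ ≠ 1`
  have hinv : ∀ g ∈ N, u₀ * g * u₀⁻¹ = g⁻¹ := by
    intro g hg
    have h1 := E12 g hg
    rw [hu₀i]
    have h2 : g * (u₀ * g * u₀) = 1 := by rw [← h1]; group
    exact (inv_eq_of_mul_eq_one_right h2).symm
  have hNc : ∀ g ∈ N, ∀ g' ∈ N, g * g' = g' * g := by
    intro g hg g' hg'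
    have h1 := hinv _ (mul_mem (inv_mem hg) (inv_mem hg'))
    have h2 : u₀ * (g⁻¹ * g'⁻¹) * u₀⁻¹ = (u₀ * g⁻¹ * u₀⁻¹) * (u₀ * g'⁻¹ * u₀⁻¹) := by group
    rw [h2, hinv _ (inv_mem hg), hinv _ (inv_mem hg'), mul_inv_rev, inv_inv, inv_inv] at h1
    exact h1
  have hN2 : ∀ g ∈ N, g * g = 1 → g ∈ AA G o := by
    intro g hg hg2
    apply hNW g _ hg
    apply cent1 C hu₀ (sqR C hu₀) hu₀1 (hNY hg).1
    have h1 := hinv g hg
    rw [inv_eq_of_mul_eq_one_left hg2] at h1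
    calc g * u₀ = (u₀ * g * u₀⁻¹) * u₀ := by rw [h1]
      _ = u₀ * g := by group
  have hA1 : ∀ a ∈ AA G o, ∀ r ∈ PP G o ⊓ PP G β, s * r * s⁻¹ = a → r = 1 := by
    intro a ha r hr he
    apply A_R C _ hr
    have h1 : r = s⁻¹ * (s * r * s⁻¹) * s := by group
    rw [h1, he, AA_comm ha (inv_mem hs)]
    have : a * s⁻¹ * s = a := by group
    rw [this]; exact ha
  have hWs : ∀ w ∈ WW G o β, s * w * s⁻¹ ∈ WW G o β → s * w * s⁻¹ ∈ AA G o := by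
    intro w hw hz
    by_contra hA
    apply hsY
    apply mem_Y_of hs
    intro w' hw'
    apply centW C hz hA (mul_mem (mul_mem hs (W_le_S hw')) (inv_mem hs))
    calc s * w' * s⁻¹ * (s * w * s⁻¹) = s * (w' * w) * s⁻¹ := by group
      _ = s * (w * w') * s⁻¹ := by rw [commW C hw' hw]
      _ = s * w * s⁻¹ * (s * w' * s⁻¹) := by group
  have hinvY : ∀ e ∈ YY G o β, e * e = 1 → e ∉ WW G o β → ∃ g ∈ N, e = g * u₀ := by
    intro e he he2 heW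
    obtain ⟨g, hg, r, hr, rfl⟩ := hNR e he
    refine ⟨g, hg, ?_⟩
    have hri : r⁻¹ = r := inv_eq_of_mul_eq_one_left (sqR C hr)
    have h1 : r * g * r⁻¹ = g⁻¹ := by
      rw [hri]
      have h2 : g * (r * g * r) = 1 := by rw [← he2]; group
      exact (inv_eq_of_mul_eq_one_right h2).symm
    by_contra hne
    apply heW
    refine mul_mem ?_ (R_le_W hr)
    have hne' : u₀⁻¹ * r ≠ 1 := by
      intro h3
      apply hne
      rw [inv_mul_eq_one.1 h3]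
    have hm : u₀⁻¹ * r ∈ PP G o ⊓ PP G β := mul_mem (inv_mem hu₀) hr
    apply cent1 C hm (sqR C hm) hne' (hNY hg).1
    have h4 : u₀ * g * u₀⁻¹ = r * g * r⁻¹ := by rw [h1, hinv g hg]
    calc g * (u₀⁻¹ * r) = u₀⁻¹ * (u₀ * g * u₀⁻¹) * r := by group
      _ = u₀⁻¹ * (r * g * r⁻¹) * r := by rw [h4]
      _ = u₀⁻¹ * r * g := by group
  have hsq : ∀ w ∈ WW G o β, (s * w * s⁻¹) * (s * w * s⁻¹) = 1 := by
    intro w hw
    calc (s * w * s⁻¹) * (s * w * s⁻¹) = s * (w * w) * s⁻¹ := by group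
      _ = 1 := by rw [sqW C hw]; group
  have hsr : ∀ r ∈ PP G o ⊓ PP G β, r ≠ 1 → ∃ g ∈ N, s * r * s⁻¹ = g * u₀ := by
    intro r hr hr1
    apply hinvY _ (h r (R_le_W hr)) (hsq r (R_le_W hr))
    intro hc
    exact hr1 (hA1 _ (hWs r (R_le_W hr) hc) r hr rfl)
  obtain ⟨g₁, hg₁, hg₁e⟩ := hsr u₀ hu₀ hu₀1
  have hg₁A : g₁ ∉ AA G o := by
    intro hc
    have h1 : s * u₀ * s⁻¹ ∈ WW G o β := by rw [hg₁e]; exact mul_mem (A_le_W hc) (R_le_W hu₀)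
    exact hu₀1 (hA1 _ (hWs u₀ (R_le_W hu₀) h1) u₀ hu₀ rfl)
  have hR : ∀ r ∈ PP G o ⊓ PP G β, r ≠ 1 → r = u₀ := by
    intro r hr hr1
    obtain ⟨g₂, hg₂, hg₂e⟩ := hsr r hr hr1
    by_contra hne
    have hm : r * u₀⁻¹ ∈ PP G o ⊓ PP G β := mul_mem hr (inv_mem hu₀)
    have hm1 : r * u₀⁻¹ ≠ 1 := fun h3 => hne (mul_inv_eq_one.1 h3)
    obtain ⟨g₃, hg₃, hg₃e⟩ := hsr _ hm hm1
    have h4 : g₃ * u₀ = g₂ * g₁⁻¹ := by
      calc g₃ * u₀ = s * (r * u₀⁻¹) * s⁻¹ := hg₃e.symm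
        _ = (s * r * s⁻¹) * (s * u₀ * s⁻¹)⁻¹ := by group
        _ = g₂ * g₁⁻¹ := by rw [hg₂e, hg₁e]; group
    have h5 : u₀ ∈ N := by
      have : u₀ = g₃⁻¹ * (g₂ * g₁⁻¹) := by rw [← h4]; group
      rw [this]
      exact mul_mem (inv_mem hg₃) (mul_mem hg₂ (inv_mem hg₁))
    exact hu₀1 (A_R C (hNW _ (R_le_W hu₀) h5) hu₀)
  have hconj : ∀ g ∈ N, ∃ t ∈ PP G o, t * u₀ * t⁻¹ = g * u₀ := by
    intro g hg
    by_cases hgA : g ∈ AA G o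
    · obtain ⟨y, hy, h1⟩ := exists_y' C hu₀ hu₀1 hgA
      exact ⟨y, hy.1, by rw [h1, AA_comm hgA hu₀.1]⟩
    obtain ⟨x, hx, a, ha, rfl⟩ := N_T1 C hNY hNW hNX hu hu1 hg₁ hg₁A hg hgA
    obtain ⟨y, hy, h1⟩ := exists_y' C hu₀ hu₀1 ha
    refine ⟨(x * s * x⁻¹) * y, mul_mem (X_S hx hs) hy.1, ?_⟩
    have h2 : (x * s * x⁻¹) * a * (x * s * x⁻¹)⁻¹ = a := by rw [AA_comm ha (X_S hx hs)]; group
    have h3 : x⁻¹ * u₀ * x = u₀ := by
      have := X_R (inv_mem hx) hu₀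
      rwa [inv_inv] at this
    calc (x * s * x⁻¹) * y * u₀ * ((x * s * x⁻¹) * y)⁻¹
        = (x * s * x⁻¹) * (y * u₀ * y⁻¹) * (x * s * x⁻¹)⁻¹ := by group
      _ = (x * s * x⁻¹) * (u₀ * a) * (x * s * x⁻¹)⁻¹ := by rw [h1]
      _ = x * (s * (x⁻¹ * u₀ * x) * s⁻¹) * x⁻¹ * ((x * s * x⁻¹) * a * (x * s * x⁻¹)⁻¹) := by group
      _ = x * (g₁ * u₀) * x⁻¹ * a := by rw [h3, h2, hg₁e]
      _ = (x * g₁ * x⁻¹) * (x * u₀ * x⁻¹ * a) := by group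
      _ = (x * g₁ * x⁻¹) * (a * u₀) := by rw [X_R hx hu₀, AA_comm ha hu₀.1]
      _ = x * g₁ * x⁻¹ * a * u₀ := by group
  have hN := conj_count C hNY hNR hu₀ hu₀1 hconj
  have hSN : ∀ t ∈ PP G o, ∀ g ∈ N, t * g * t⁻¹ ∈ N := by
    intro t ht g hg
    obtain ⟨t', ht', h1⟩ := hconj g hg
    obtain ⟨g', hg', h2⟩ := hN (t * t') (mul_mem ht ht')
    obtain ⟨g'', hg'', h3⟩ := hN t ht
    have h4 : t * g * t⁻¹ = g' * g''⁻¹ := by
      calc t * g * t⁻¹ = (t * (g * u₀) * t⁻¹) * (t * u₀ * t⁻¹)⁻¹ := by group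
        _ = ((t * t') * u₀ * (t * t')⁻¹) * (t * u₀ * t⁻¹)⁻¹ := by rw [← h1]; group
        _ = g' * g''⁻¹ := by rw [h2, h3]; group
    rw [h4]
    exact mul_mem hg' (inv_mem hg'')
  have hSA : ∀ t ∈ PP G o, ∀ g ∈ N, t * g * t⁻¹ * g⁻¹ ∈ AA G o := by
    intro t ht g hg
    have h1 := hSN t ht g hg
    apply hN2 _ (mul_mem h1 (inv_mem hg))
    have h2 := sqY C hu hu1 (hNY hg)
    calc t * g * t⁻¹ * g⁻¹ * (t * g * t⁻¹ * g⁻¹) = (t * g * t⁻¹) * (g⁻¹ * (t * g * t⁻¹)) * g⁻¹ := by group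
      _ = (t * g * t⁻¹) * ((t * g * t⁻¹) * g⁻¹) * g⁻¹ := by rw [hNc g⁻¹ (inv_mem hg) _ h1]
      _ = t * (g * g) * t⁻¹ * (g * g)⁻¹ := by group
      _ = 1 := by rw [AA_comm h2 ht]; group
  let _ : CommGroup (AA G o) :=
    { (inferInstance : Group (AA G o)) with
      mul_comm := fun a b => Subtype.ext (AA_comm b.2 a.2.1) }
  let φ : PP G o →* AA G o :=
    { toFun := fun t => ⟨t.1 * g₁ * t.1⁻¹ * g₁⁻¹, hSA t.1 t.2 g₁ hg₁⟩
      map_one' := by apply Subtype.ext; simp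
      map_mul' := fun t t' => by
        apply Subtype.ext
        show t.1 * t'.1 * g₁ * (t.1 * t'.1)⁻¹ * g₁⁻¹ = (t.1 * g₁ * t.1⁻¹ * g₁⁻¹) * (t'.1 * g₁ * t'.1⁻¹ * g₁⁻¹)
        have h1 := hSA t'.1 t'.2 g₁ hg₁
        have h2 := hSA t.1 t.2 g₁ hg₁
        have h3 : t.1 * (t'.1 * g₁ * t'.1⁻¹ * g₁⁻¹) * t.1⁻¹ = t'.1 * g₁ * t'.1⁻¹ * g₁⁻¹ := by
          rw [AA_comm h1 t.2]; group
        calc t.1 * t'.1 * g₁ * (t.1 * t'.1)⁻¹ * g₁⁻¹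
            = (t.1 * (t'.1 * g₁ * t'.1⁻¹ * g₁⁻¹) * t.1⁻¹) * (t.1 * g₁ * t.1⁻¹ * g₁⁻¹) := by group
          _ = (t'.1 * g₁ * t'.1⁻¹ * g₁⁻¹) * (t.1 * g₁ * t.1⁻¹ * g₁⁻¹) := by rw [h3]
          _ = (t.1 * g₁ * t.1⁻¹ * g₁⁻¹) * (t'.1 * g₁ * t'.1⁻¹ * g₁⁻¹) := by rw [AA_comm h2 h1.1] }
  have hc2 : φ ⟨u₀, hu₀.1⟩ ^ 2 = 1 := by
    rw [pow_two]
    exact Subtype.ext (AA_sq (φ ⟨u₀, hu₀.1⟩).2)
  have ht := transfer_invol (PP G o) hidx φ u₀ (by rw [pow_two]; exact sqR C hu₀) _ hc2 (by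
    intro k hk
    -- `k⁻¹ u₀ k` is `S`-conjugate to `u₀`
    have h1 : ∃ γ : Ω, γ ≠ o ∧ (k⁻¹ * u₀ * k) • γ = γ := by
      by_cases hko : k⁻¹ • o = o
      · refine ⟨k⁻¹ • β, fun hc => ?_, ?_⟩
        · rw [← hko] at hc
          exact C.hob (MulAction.injective k⁻¹ hc).symm
        · rw [mul_smul, mul_smul, smul_inv_smul, PP_le_stab β hu₀.2]
      · refine ⟨k⁻¹ • o, hko, ?_⟩
        rw [mul_smul, mul_smul, smul_inv_smul, PP_le_stab o hu₀.1]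
    obtain ⟨γ, hγ, h2⟩ := h1
    obtain ⟨t, ht, htb⟩ := C.trans γ hγ
    have h3 : t⁻¹ * (k⁻¹ * u₀ * k) * t ∈ PP G o ⊓ PP G β := by
      apply mem_R_of C (mul_mem (mul_mem (inv_mem ht) hk) ht)
      rw [mul_smul, mul_smul, htb, h2, ← htb, inv_smul_smul]
    have h4 : t⁻¹ * (k⁻¹ * u₀ * k) * t = u₀ := by
      apply hR _ h3
      intro hc
      apply hu₀1
      have : u₀ = k * t * (t⁻¹ * (k⁻¹ * u₀ * k) * t) * (k * t)⁻¹ := by group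
      rw [this, hc]; group
    have h5 : (⟨k⁻¹ * u₀ * k, hk⟩ : PP G o) = ⟨t, ht⟩ * ⟨u₀, hu₀.1⟩ * (⟨t, ht⟩ : PP G o)⁻¹ := by
      apply Subtype.ext
      show k⁻¹ * u₀ * k = t * u₀ * t⁻¹
      calc k⁻¹ * u₀ * k = t * (t⁻¹ * (k⁻¹ * u₀ * k) * t) * t⁻¹ := by group
        _ = t * u₀ * t⁻¹ := by rw [h4]
    rw [h5, map_mul, map_mul, map_inv, mul_comm, inv_mul_cancel_left])
  have h6 : u₀ ∈ (MonoidHom.transfer φ).ker := by
    have h7 := Abelianization.commutator_subset_ker (MonoidHom.transfer φ)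
    rw [hG] at h7
    exact h7 (Subgroup.mem_top u₀)
  rw [MonoidHom.mem_ker, ht] at h6
  have h8 : u₀ * g₁ * u₀⁻¹ * g₁⁻¹ = 1 := congrArg Subtype.val h6
  rw [hinv g₁ hg₁] at h8
  apply hg₁A
  apply hN2 g₁ hg₁
  have : g₁ * g₁ = (g₁⁻¹ * g₁⁻¹)⁻¹ := by rw [mul_inv_rev, inv_inv]
  rw [this, h8, inv_one]

end

end Cfsg.Agent.H27.SB
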