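import Cfsg.Agent.H27.SB7
import Cfsg.Agent.H52.Nilp
import Cfsg.Agent.H4.Final

/-!
# Split 2-transitive groups of odd degree: involutions fix only one point
-/

set_option autoImplicit false
set_option linter.unusedVariables false
set_option linter.unusedSectionVars false

namespace Cfsg.Agent.H27.SB

open MulAction Subgroup
open scoped commutatorElement

universe u v

theorem exists_two_part {G : Type*} [Group G] [Finite G] (g : G) :
    ∃ i j : ℤ, g = g ^ i * g ^ j ∧ El2 (g ^ i) ∧ Odd (orderOf (g ^ j)) := by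
  obtain ⟨k, m, hm, hn⟩ := Nat.exists_eq_two_pow_mul_odd (orderOf_pos g).ne'
  have hcop : IsCoprime (m : ℤ) ((2 ^ k : ℕ) : ℤ) := by
    rw [Nat.isCoprime_iff_coprime]
    exact Nat.Coprime.pow_right k (Nat.coprime_two_right.2 hm)
  obtain ⟨a, b, hab⟩ := hcop
  refine ⟨a * m, b * (2 ^ k : ℕ), ?_, ⟨k, ?_⟩, ?_⟩
  · rw [← zpow_add, hab, zpow_one]
  · rw [← zpow_natCast, ← zpow_mul]
    have : a * (m : ℤ) * ((2 ^ k : ℕ) : ℤ) = (orderOf g : ℤ) * a := by rw [hn]; push_cast; ring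
    rw [this, zpow_mul, zpow_natCast, pow_orderOf_eq_one, one_zpow]
  · have h1 : orderOf (g ^ (b * ((2 ^ k : ℕ) : ℤ))) ∣ m := by
      apply orderOf_dvd_of_pow_eq_one
      rw [← zpow_natCast, ← zpow_mul]
      have : b * ((2 ^ k : ℕ) : ℤ) * (m : ℤ) = (orderOf g : ℤ) * b := by rw [hn]; push_cast; ring
      rw [this, zpow_mul, zpow_natCast, pow_orderOf_eq_one, one_zpow]
    exact Odd.of_dvd_nat hm h1

theorem El2.orderOf {G : Type*} [Group G] {x : G} (h : El2 x) : ∃ k, orderOf x = 2 ^ k := by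
  obtain ⟨k, hk⟩ := h
  obtain ⟨j, -, hj⟩ := (Nat.dvd_prime_pow Nat.prime_two).1 (orderOf_dvd_of_pow_eq_one hk)
  exact ⟨j, hj⟩

/-- in a nilpotent group 2-elements and elements of odd order commute -/
theorem nil_comm {G : Type*} [Group G] [Finite G] {U : Subgroup G} (hU : Group.IsNilpotent U) {x y : G} (hx : x ∈ U)
    (hy : y ∈ U) (hx2 : El2 x) (hy2 : Odd (orderOf y)) : x * y = y * x := by
  have h1 : (orderOf (⟨x, hx⟩ : U)).Coprime (orderOf (⟨y, hy⟩ : U)) := by
    rw [Subgroup.orderOf_mk, Subgroup.orderOf_mk]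
    obtain ⟨k, hk⟩ := hx2.orderOf
    rw [hk]
    exact Nat.Coprime.pow_left k (Nat.coprime_two_left.2 hy2)
  exact congrArg Subtype.val (H52.commute_of_isNilpotent_of_coprime hU h1)

/-- in a nilpotent group products of 2-elements are 2-elements -/
theorem nil_mul {G : Type*} [Group G] [Finite G] {U : Subgroup G} (hU : Group.IsNilpotent U) {x y : G} (hx : x ∈ U)
    (hy : y ∈ U) (hx2 : El2 x) (hy2 : El2 y) : El2 (x * y) := by
  have := Fact.mk Nat.prime_two
  obtain ⟨P⟩ : Nonempty (Sylow 2 U) := inferInstance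
  have hn0 : ∀ (p : ℕ) (_hp : Fact p.Prime) (P : Sylow p U), (P : Subgroup U).Normal :=
    ((Group.isNilpotent_of_finite_tfae (G := U)).out 0 3).1 hU
  have hn : (P : Subgroup U).Normal := hn0 2 this P
  have key : ∀ z : U, El2 z.1 → z ∈ (P : Subgroup U) := by
    intro z hz
    have h1 : IsPGroup 2 (Subgroup.zpowers z) := by
      obtain ⟨k, hk⟩ := hz
      rw [IsPGroup.iff_card]
      have h2 : z ^ 2 ^ k = 1 := Subtype.ext hk
      obtain ⟨j, -, hj⟩ := (Nat.dvd_prime_pow Nat.prime_two).1 (orderOf_dvd_of_pow_eq_one h2)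
      exact ⟨j, by rw [Nat.card_zpowers, hj]⟩
    obtain ⟨Q, hQ⟩ := h1.exists_le_sylow
    have hu := Sylow.unique_of_normal P hn
    have : Q = P := Subsingleton.elim _ _
    rw [← this]
    exact hQ (Subgroup.mem_zpowers z)
  have h1 : (⟨x, hx⟩ : U) * ⟨y, hy⟩ ∈ (P : Subgroup U) := mul_mem (key _ hx2) (key _ hy2)
  obtain ⟨k, hk⟩ := P.isPGroup' ⟨_, h1⟩
  refine ⟨k, ?_⟩
  have h2 := congrArg Subtype.val (congrArg Subtype.val hk)
  exact h2

/-- 2-elements of `U T` with `T` of odd order -/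
theorem mem_of_two {G : Type*} [Group G] [Finite G] {U T : Subgroup G} (hTU : ∀ t ∈ T, ∀ v ∈ U, t * v * t⁻¹ ∈ U)
    (hdis : ∀ t ∈ T, t ∈ U → t = 1) (hTodd : Odd (Nat.card T)) {v t : G} (hv : v ∈ U) (ht : t ∈ T) (h : El2 (v * t)) :
    v * t ∈ U := by
  have key : ∀ n : ℕ, (v * t) ^ n * (t ^ n)⁻¹ ∈ U := by
    intro n
    induction n with
    | zero => simp [one_mem]
    | succ n ih =>
      have e : (v * t) ^ (n + 1) * (t ^ (n + 1))⁻¹ = ((v * t) ^ n * (t ^ n)⁻¹) * (t ^ n * v * (t ^ n)⁻¹) := by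
        rw [pow_succ, pow_succ]; group
      rw [e]
      exact mul_mem ih (hTU _ (pow_mem ht n) v hv)
  obtain ⟨k, hk⟩ := h
  have h1 := key (2 ^ k)
  rw [hk, one_mul] at h1
  have h2 : t ^ 2 ^ k = 1 := by
    have := hdis _ (inv_mem (pow_mem ht (2 ^ k))) h1
    exact inv_eq_one.1 this
  have h3 : t = 1 := by
    apply El2.eq_one_of_odd ⟨k, h2⟩
    have h4 : orderOf t ∣ Nat.card T := by
      rw [← Subgroup.orderOf_mk t ht]; exact orderOf_dvd_natCard _
    exact Odd.of_dvd_nat hTodd h4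
  rw [h3, mul_one]; exact hv

theorem odd_index_of {G : Type*} [Group G] [Finite G] {H K : Subgroup G} (hn : (K.subgroupOf H).Normal)
    (h1 : ∀ x ∈ H, El2 x → x ∈ K) (h2 : ∀ x ∈ K, El2 x) : Odd (K.subgroupOf H).index := by
  by_contra hodd
  rw [Nat.not_odd_iff_even, even_iff_two_dvd] at hodd
  have := Fact.mk Nat.prime_two
  rw [Subgroup.index] at hodd
  obtain ⟨z, hz⟩ := exists_prime_orderOf_dvd_card' (G := H ⧸ K.subgroupOf H) 2 hodd
  obtain ⟨x, rfl⟩ := QuotientGroup.mk_surjective z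
  have h3 : (QuotientGroup.mk (x ^ 2) : H ⧸ K.subgroupOf H) = 1 := by
    rw [QuotientGroup.mk_pow, ← hz, pow_orderOf_eq_one]
  rw [QuotientGroup.eq_one_iff] at h3
  have h4 : x.1 ^ 2 ∈ K := h3
  obtain ⟨k, hk⟩ := h2 _ h4
  have h5 : x.1 ∈ K := h1 _ x.2 ⟨k + 1, by rw [pow_succ', pow_mul]; exact hk⟩
  have h6 : (QuotientGroup.mk x : H ⧸ K.subgroupOf H) = 1 := by
    rw [QuotientGroup.eq_one_iff]; exact h5
  rw [h6, orderOf_one] at hz
  omega

section

variable {G : Type u} [Group G] [Finite G] {Ω : Type v} [MulAction G Ω] [Finite Ω] {o β : Ω} {U T : Subgroup G}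

/-- the hypotheses -/
structure SplitH (U T : Subgroup G) (o β : Ω) : Prop where
  hob : o ≠ β
  U_fix : ∀ v ∈ U, v • o = o
  T_fix : ∀ t ∈ T, t • o = o
  U_norm : ∀ b : G, b • o = o → ∀ v ∈ U, b * v * b⁻¹ ∈ U
  U_nil : Group.IsNilpotent U
  UT : ∀ b : G, b • o = o → ∃ v ∈ U, ∃ t ∈ T, b = v * t
  dis : ∀ t ∈ T, t ∈ U → t = 1
  T_odd : Odd (Nat.card T)
  U_tr : ∀ γ : Ω, γ ≠ o → ∃ v ∈ U, γ = v • β
  tr : ∀ γ : Ω, ∃ g : G, g • o = γ
  odd : Odd (Nat.card Ω)
  even : Even (Nat.card G)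

variable (D : SplitH U T o β)
include D

theorem SplitH.mem_U {x : G} (hx : x • o = o) (hx2 : El2 x) : x ∈ U := by
  obtain ⟨v, hv, t, ht, rfl⟩ := D.UT x hx
  exact mem_of_two (fun t ht v hv => D.U_norm t (D.T_fix t ht) v hv) D.dis D.T_odd hv ht hx2

theorem SplitH.closed_o {g h : G} (hg : g • o = o) (hh : h • o = o) (hg2 : El2 g) (hh2 : El2 h) : El2 (g * h) :=
  nil_mul D.U_nil (D.mem_U hg hg2) (D.mem_U hh hh2) hg2 hh2

theorem SplitH.PP_o {x : G} : x ∈ PP G o ↔ x • o = o ∧ El2 x := by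
  refine ⟨fun hg => ⟨PP_le_stab o hg, ?_⟩, fun hg => mem_PP_of hg.1 hg.2⟩
  let K : Subgroup G :=
    { carrier := {g : G | g • o = o ∧ El2 g}
      one_mem' := ⟨one_smul _ _, El2.one⟩
      mul_mem' := fun {a b} ha hb => ⟨by rw [mul_smul, hb.1, ha.1], D.closed_o ha.1 hb.1 ha.2 hb.2⟩
      inv_mem' := fun {a} ha => ⟨by rw [inv_smul_eq_iff, ha.1], by
        obtain ⟨k, hk⟩ := ha.2
        exact ⟨k, by rw [inv_pow, hk, inv_one]⟩⟩ }
  have : PP G o ≤ K := by
    unfold PP
    rw [closure_le]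
    exact fun x hx => hx
  exact (this hg).2

theorem SplitH.U_dec {v : G} (hv : v ∈ U) : ∃ x ∈ PP G o, ∃ y ∈ U, Odd (orderOf y) ∧ v = x * y := by
  obtain ⟨i, j, h1, h2, h3⟩ := exists_two_part v
  have hi : v ^ i ∈ U := zpow_mem hv i
  exact ⟨v ^ i, mem_PP_of (D.U_fix _ hi) h2, v ^ j, zpow_mem hv j, h3, h1⟩

theorem SplitH.PP_odd_comm {x y : G} (hx : x ∈ PP G o) (hy : y ∈ U) (hy2 : Odd (orderOf y)) : x * y = y * x := by
  have h1 := D.PP_o.1 hx
  exact nil_comm D.U_nil (D.mem_U h1.1 h1.2) hy h1.2 hy2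

theorem SplitH.AA_comm_U {a v : G} (ha : a ∈ AA G o) (hv : v ∈ U) : v * a = a * v := by
  obtain ⟨x, hx, y, hy, hy2, rfl⟩ := D.U_dec hv
  calc x * y * a = x * (y * a) := mul_assoc _ _ _
    _ = x * (a * y) := by rw [D.PP_odd_comm ha.1 hy hy2]
    _ = (x * a) * y := (mul_assoc _ _ _).symm
    _ = (a * x) * y := by rw [AA_comm ha hx]
    _ = a * (x * y) := mul_assoc _ _ _

theorem SplitH.U_tr' {γ δ : Ω} (hγ : γ ≠ o) (hδ : δ ≠ o) : ∃ v ∈ U, v • γ = δ := by
  obtain ⟨v, hv, rfl⟩ := D.U_tr γ hγ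
  obtain ⟨w, hw, rfl⟩ := D.U_tr δ hδ
  exact ⟨w * v⁻¹, mul_mem hw (inv_mem hv), by rw [mul_smul, inv_smul_smul]⟩

theorem SplitH.semi_o [FaithfulSMul G Ω] {a : G} {γ : Ω} (ha : a ∈ AA G o) (ha1 : a ≠ 1) (h : a • γ = γ) : γ = o := by
  by_contra hγ
  apply ha1
  apply FaithfulSMul.eq_of_smul_eq_smul (α := Ω)
  intro δ
  rw [one_smul]
  by_cases hδ : δ = o
  · rw [hδ, PP_le_stab o ha.1]
  obtain ⟨v, hv, rfl⟩ := D.U_tr' hγ hδ
  rw [← mul_smul, ← D.AA_comm_U ha hv, mul_smul, h]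

theorem SplitH.cfg [FaithfulSMul G Ω] : Cfg G Ω := by
  refine ⟨?_, ?_, ?_⟩
  · intro α g h hg hh hg2 hh2
    obtain ⟨c, rfl⟩ := D.tr α
    have h1 : (c⁻¹ * g * c⁻¹⁻¹) • o = o := by
      rw [inv_inv, mul_smul, mul_smul, hg, inv_smul_smul]
    have h2 : (c⁻¹ * h * c⁻¹⁻¹) • o = o := by
      rw [inv_inv, mul_smul, mul_smul, hh, inv_smul_smul]
    have h3 := (D.closed_o h1 h2 (hg2.conj c⁻¹) (hh2.conj c⁻¹)).conj c
    have e : c * (c⁻¹ * g * c⁻¹⁻¹ * (c⁻¹ * h * c⁻¹⁻¹)) * c⁻¹ = g * h := by group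
    rwa [e] at h3
  · intro α a γ ha ha1 hγ
    obtain ⟨c, rfl⟩ := D.tr α
    have h1 := conj_mem_AA ha c⁻¹
    rw [inv_smul_smul, inv_inv] at h1
    have h2 : c⁻¹ • γ = o := by
      apply D.semi_o h1
      · intro e
        apply ha1
        have : a = c * (c⁻¹ * a * c) * c⁻¹ := by group
        rw [this, e]; group
      · rw [mul_smul, mul_smul, smul_inv_smul, hγ]
    rw [← h2, smul_inv_smul]
  · intro α γ δ ε hαγ hδε
    obtain ⟨c, hc⟩ := D.tr α
    obtain ⟨d, hd⟩ := D.tr δ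
    have h1 : c⁻¹ • γ ≠ o := by
      intro e
      apply hαγ
      rw [← hc, ← e, smul_inv_smul]
    have h2 : d⁻¹ • ε ≠ o := by
      intro e
      apply hδε
      rw [← hd, ← e, smul_inv_smul]
    obtain ⟨v, hv, hv2⟩ := D.U_tr' h1 h2
    refine ⟨d * v * c⁻¹, ?_, ?_⟩
    · rw [mul_smul, mul_smul, ← hc, inv_smul_smul, D.U_fix v hv, hd]
    · rw [mul_smul, mul_smul, hv2, smul_inv_smul]

theorem SplitH.odd_index : Odd (PP G o).index := by
  have h1 : PP G o ≤ stabilizer G o := fun x hx => PP_le_stab o hx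
  have h2 : (PP G o).relIndex (stabilizer G o) * (stabilizer G o).index = (PP G o).index := Subgroup.relIndex_mul_index h1
  rw [← h2]
  apply Odd.mul
  · apply odd_index_of
    · constructor
      intro n hn g
      have h3 := conj_mem_PP hn g.1
      have h4 : g.1 • o = o := g.2
      rw [h4] at h3
      exact h3
    · intro x hx hx2
      exact mem_PP_of hx hx2
    · intro x hx
      exact (D.PP_o.1 hx).2
  · rw [index_stabilizer]
    have : orbit G o = Set.univ := by
      rw [Set.eq_univ_iff_forall]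
      intro γ
      obtain ⟨g, hg⟩ := D.tr γ
      exact ⟨g, hg⟩
    rw [this, Set.ncard_univ]
    exact D.odd

theorem SplitH.PP_ne_bot : PP G o ≠ ⊥ := by
  intro h
  have h1 := D.odd_index
  rw [h, Subgroup.index_bot] at h1
  exact (Nat.not_even_iff_odd.2 h1) D.even

theorem SplitH.AA_ne_bot : AA G o ≠ ⊥ := by
  have := Fact.mk Nat.prime_two
  have hp : IsPGroup 2 (PP G o) := by
    intro x
    obtain ⟨k, hk⟩ := (D.PP_o.1 x.2).2
    exact ⟨k, Subtype.ext hk⟩
  have hnt : Nontrivial (PP G o) := (Subgroup.nontrivial_iff_ne_bot _).2 D.PP_ne_bot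
  have hc : Nontrivial (Subgroup.center (PP G o)) := hp.center_nontrivial
  have hpc : IsPGroup 2 (Subgroup.center (PP G o)) := hp.to_subgroup _
  have hdvd : 2 ∣ Nat.card (Subgroup.center (PP G o)) := by
    obtain ⟨k, hk⟩ := IsPGroup.iff_card.1 hpc
    rw [hk]
    apply dvd_pow_self
    rintro rfl
    rw [pow_zero] at hk
    have := Finite.one_lt_card_iff_nontrivial.2 hc
    omega
  obtain ⟨z, hz⟩ := exists_prime_orderOf_dvd_card' 2 hdvd
  intro h
  have h1 : z.1.1 ∈ AA G o := by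
    refine ⟨z.1.2, ?_, ?_⟩
    · have h2 : z * z = 1 := by rw [← pow_two, ← hz, pow_orderOf_eq_one]
      exact congrArg (fun w => w.1.1) h2
    · intro s hs
      exact congrArg Subtype.val (Subgroup.mem_center_iff.1 z.2 ⟨s, hs⟩)
  rw [h, Subgroup.mem_bot] at h1
  have h2 : z = 1 := Subtype.ext (Subtype.ext h1)
  rw [h2, orderOf_one] at hz
  omega

/-- the 2-part of the two-point stabiliser is trivial -/
theorem SplitH.main [FaithfulSMul G Ω] [IsSimpleGroup G] (hna : ∃ a b : G, a * b ≠ b * a) (hBS : BSHyp.{u}) :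
    PP G o ⊓ PP G β = ⊥ := by
  have := Fact.mk Nat.prime_two
  have h := D.cfg
  by_contra hR
  by_cases hq : 4 ≤ Nat.card (AA G o)
  · have C := cfg2_of h D.hob hBS hq (by
      intro γ hγ
      obtain ⟨v, hv, rfl⟩ := D.U_tr γ hγ
      obtain ⟨x, hx, y, hy, hy2, rfl⟩ := D.U_dec hv
      refine ⟨x, hx, y, fun s hs => D.PP_odd_comm hs hy hy2, ?_, by rw [mul_smul]⟩
      intro e
      apply D.hob
      have : y • β = y • o := by rw [e, D.U_fix y hy]
      exact (MulAction.injective y this).symm) hR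
    obtain ⟨⟨u, hu⟩, hu1⟩ := (Subgroup.ne_bot_iff_exists_ne_one).1 hR
    have hcom : commutator G = ⊤ := by
      have hn : (commutator G).Normal := inferInstance
      rcases hn.eq_bot_or_eq_top with h1 | h1
      · exfalso
        obtain ⟨a, b, hab⟩ := hna
        apply hab
        have h2 : ⁅a, b⁆ ∈ commutator G := Subgroup.commutator_mem_commutator (Subgroup.mem_top a) (Subgroup.mem_top b)
        rw [h1, Subgroup.mem_bot] at h2
        exact (commutatorElement_eq_one_iff_mul_comm).1 h2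
      · exact h1
    exact final C hu (fun e => hu1 (Subtype.ext e)) D.odd_index hcom
  · -- `AA G o` has order two
    have hp : IsPGroup 2 (AA G o) := (isPGroup_PP h o).to_le (AA_le_PP o)
    obtain ⟨k, hk⟩ := IsPGroup.iff_card.1 hp
    have hk1 : k = 1 := by
      rcases Nat.lt_or_ge k 2 with h1 | h1
      · rcases Nat.eq_zero_or_pos k with h2 | h2
        · exfalso
          rw [h2, pow_zero] at hk
          exact D.AA_ne_bot (Subgroup.card_eq_one.1 hk)
        · omega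
      · exfalso
        apply hq
        rw [hk]
        calc 4 = 2 ^ 2 := by norm_num
          _ ≤ 2 ^ k := Nat.pow_le_pow_right (by norm_num) h1
    rw [hk1, pow_one] at hk
    obtain ⟨⟨z, hz⟩, hz1⟩ := (Subgroup.ne_bot_iff_exists_ne_one).1 D.AA_ne_bot
    have hz1' : z ≠ 1 := fun e => hz1 (Subtype.ext e)
    have huniq : ∀ w ∈ AA G o, w ≠ 1 → w = z := by
      intro w hw hw1
      by_contra hne
      classical
      have := Fintype.ofFinite (AA G o)
      have h1 : ({1, z, w} : Finset G) ⊆ (Finset.univ : Finset (AA G o)).image Subtype.val := by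
        intro x hx
        rw [Finset.mem_image]
        simp only [Finset.mem_insert, Finset.mem_singleton] at hx
        rcases hx with rfl | rfl | rfl
        · exact ⟨1, Finset.mem_univ _, rfl⟩
        · exact ⟨⟨_, hz⟩, Finset.mem_univ _, rfl⟩
        · exact ⟨⟨_, hw⟩, Finset.mem_univ _, rfl⟩
      have h2 := Finset.card_le_card h1
      rw [Finset.card_image_of_injective _ Subtype.val_injective, Finset.card_univ, ← Nat.card_eq_fintype_card, hk,
        Finset.card_eq_three.2 ⟨1, z, w, Ne.symm hz1', Ne.symm hw1, Ne.symm hne, rfl⟩] at h2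
      omega
    let P : Sylow 2 G := (isPGroup_PP h o).toSylow (by
      intro hd
      exact (Nat.not_even_iff_odd.2 D.odd_index) (even_iff_two_dvd.2 hd))
    have hP : (P : Subgroup G) = PP G o := rfl
    have hstar := H4.zstar_sylow P (orderOf_eq_two_of (AA_sq hz) hz1') (by
      intro g hg
      have hg' : g * z * g⁻¹ ∈ PP G o := hg
      have h1 := conj_AA_eq h hz hz1' (PP_le_stab o hg')
      have h2 := conj_mem_AA hz g
      rw [← h1] at h2
      apply huniq _ h2
      intro e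
      apply hz1'
      have : z = g⁻¹ * (g * z * g⁻¹) * g := by group
      rw [this, e]; group)
    have hn : (Cfsg.pPrimeCore 2 G).Normal := inferInstance
    rcases hn.eq_bot_or_eq_top with h1 | h1
    · rw [h1] at hstar
      have h2 : z ∈ Subgroup.center G := by
        rw [Subgroup.mem_center_iff]
        intro g
        have h3 := Subgroup.mem_bot.1 (hstar g)
        have h4 : z * g = g * z := by
          calc z * g = (z * g * z⁻¹ * g⁻¹) * (g * z) := by group
            _ = g * z := by rw [h3, one_mul]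
        exact h4.symm
      have h3 : (Subgroup.center G).Normal := inferInstance
      rcases h3.eq_bot_or_eq_top with h4 | h4
      · rw [h4, Subgroup.mem_bot] at h2
        exact hz1' h2
      · obtain ⟨a, b, hab⟩ := hna
        apply hab
        have h5 : b ∈ Subgroup.center G := by rw [h4]; exact Subgroup.mem_top b
        exact Subgroup.mem_center_iff.1 h5 a
    · have h2 := Cfsg.Agent.H4.odd_card_pPrimeCore_two (G := G)
      rw [h1, Subgroup.card_top] at h2
      exact (Nat.not_even_iff_odd.2 h2) D.even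

end

end Cfsg.Agent.H27.SB
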