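import Cfsg.Agent.H27.SB8
import Cfsg.Prelude.Def_LieExceptional

/-!
# Split BN-pairs of rank one and odd index
-/

set_option autoImplicit false
set_option linter.unusedVariables false
set_option linter.unusedSectionVars false

namespace Cfsg.Agent.H27.SB

open MulAction Subgroup

universe u

variable {G : Type u} [Group G] [Finite G]

theorem mk_smul_iff {B : Subgroup G} (g : G) : g • ((1 : G) : G ⧸ B) = ((1 : G) : G ⧸ B) ↔ g ∈ B := by
  show ((g * 1 : G) : G ⧸ B) = ((1 : G) : G ⧸ B) ↔ g ∈ B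
  rw [QuotientGroup.eq, mul_one, mul_one, inv_mem_iff]

theorem exists_s_rank (P : Cfsg.BNPair G) (hrank : P.rank = 1) : ∃ s : G, P.S = {s} := by
  unfold Cfsg.BNPair.rank at hrank
  rw [Nat.card_coe_set_eq] at hrank
  exact Set.ncard_eq_one.1 hrank

theorem s_notin (P : Cfsg.BNPair G) {s : G} (hs : s ∈ P.S) : s ∉ P.B := by
  intro hB
  apply P.conj_ne s hs
  ext x
  constructor
  · rintro ⟨b, hb, rfl⟩
    exact mul_mem (mul_mem hB hb) hB
  · intro hx
    refine ⟨s⁻¹ * x * s⁻¹, mul_mem (mul_mem (inv_mem hB) hx) (inv_mem hB), ?_⟩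
    show s * (s⁻¹ * x * s⁻¹) * s = x
    group

theorem not_comm (P : Cfsg.BNPair G) {s : G} (hs : s ∈ P.S) : ∃ a b : G, a * b ≠ b * a := by
  by_contra hc
  push Not at hc
  have hs2 := P.sq_mem s hs
  apply P.conj_ne s hs
  ext x
  constructor
  · rintro ⟨b, hb, rfl⟩
    show s * b * s ∈ P.B
    have : s * b * s = b * (s * s) := by rw [hc s b, mul_assoc]
    rw [this]
    exact mul_mem hb hs2
  · intro hx
    refine ⟨x * (s * s)⁻¹, mul_mem hx (inv_mem hs2), ?_⟩
    show s * (x * (s * s)⁻¹) * s = x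
    rw [hc s]
    group

theorem bruhat (P : Cfsg.BNPair G) {s : G} (hS : P.S = {s}) (g : G) (hg : g ∉ P.B) :
    ∃ b ∈ P.B, ∃ b' ∈ P.B, g = b * s * b' := by
  have hs : s ∈ P.S := by rw [hS]; exact Set.mem_singleton s
  have hsN : s ∈ P.N := P.subset hs
  have hs2 := P.sq_mem s hs
  have key : ∀ b ∈ P.B, s * b * s ∈ P.B ∨ ∃ c ∈ P.B, ∃ c' ∈ P.B, s * b * s = c * s * c' := by
    intro b hb
    rcases P.mul_mem_union s hs s hsN b hb with h | h
    · left
      rw [DoubleCoset.mem_doubleCoset] at h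
      obtain ⟨x, hx, y, hy, h1⟩ := h
      rw [h1]
      exact mul_mem (mul_mem hx hs2) hy
    · right
      rw [DoubleCoset.mem_doubleCoset] at h
      obtain ⟨x, hx, y, hy, h1⟩ := h
      exact ⟨x, hx, y, hy, h1⟩
  let K : Subgroup G :=
    { carrier := {g | g ∈ P.B ∨ ∃ b ∈ P.B, ∃ b' ∈ P.B, g = b * s * b'}
      one_mem' := Or.inl (one_mem _)
      mul_mem' := by
        rintro x y (hx | ⟨b, hb, b', hb', rfl⟩) (hy | ⟨c, hc, c', hc', rfl⟩)
        · exact Or.inl (mul_mem hx hy)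
        · exact Or.inr ⟨x * c, mul_mem hx hc, c', hc', by group⟩
        · exact Or.inr ⟨b, hb, b' * y, mul_mem hb' hy, by group⟩
        · have e : b * s * b' * (c * s * c') = b * (s * (b' * c) * s) * c' := by group
          rcases key _ (mul_mem hb' hc) with h | ⟨d, hd, d', hd', h⟩
          · left
            rw [e]; exact mul_mem (mul_mem hb h) hc'
          · right
            refine ⟨b * d, mul_mem hb hd, d' * c', mul_mem hd' hc', ?_⟩
            rw [e, h]; group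
      inv_mem' := by
        rintro x (hx | ⟨b, hb, b', hb', rfl⟩)
        · exact Or.inl (inv_mem hx)
        · refine Or.inr ⟨b'⁻¹, inv_mem hb', (s * s)⁻¹ * b⁻¹, mul_mem (inv_mem hs2) (inv_mem hb), ?_⟩
          group }
  have hK : K = ⊤ := by
    rw [eq_top_iff, ← P.sup_eq_top, sup_le_iff]
    have hB : P.B ≤ K := fun b hb => Or.inl hb
    refine ⟨hB, ?_⟩
    rw [← P.closure_sup, sup_le_iff]
    refine ⟨?_, inf_le_left.trans hB⟩
    rw [closure_le, hS]
    rintro x hx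
    rw [Set.mem_singleton_iff] at hx
    subst hx
    exact Or.inr ⟨1, one_mem _, 1, one_mem _, by group⟩
  have h1 : g ∈ K := by rw [hK]; exact Subgroup.mem_top g
  rcases h1 with h1 | h1
  · exact absurd h1 hg
  · exact h1

theorem bn_main [IsSimpleGroup G] (P : Cfsg.BNPair G) (hrank : P.rank = 1) (U : Subgroup G) (hUB : U ≤ P.B)
    (hUn : (U.subgroupOf P.B).Normal) (hUnil : Group.IsNilpotent U) (hsplit : U ⊔ (P.B ⊓ P.N) = P.B)
    (hdisj : U ⊓ P.N = ⊥) (hind : Odd P.B.index) (hH : Odd (Nat.card ↥(P.B ⊓ P.N))) (hBS : BSHyp.{u}) :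
    Cfsg.IsStronglyEmbedded P.B ∧ ∃ a b : G, a * b ≠ b * a := by
  obtain ⟨s, hS⟩ := exists_s_rank P hrank
  have hs : s ∈ P.S := by rw [hS]; exact Set.mem_singleton s
  have hsN : s ∈ P.N := P.subset hs
  have hs2 := P.sq_mem s hs
  have hsB := s_notin P hs
  have hna := not_comm P hs
  have hUc : ∀ b ∈ P.B, ∀ v ∈ U, b * v * b⁻¹ ∈ U := by
    intro b hb v hv
    exact hUn.conj_mem ⟨v, hUB hv⟩ hv ⟨b, hb⟩
  have hUT : ∀ b ∈ P.B, ∃ v ∈ U, ∃ t ∈ P.B ⊓ P.N, b = v * t := by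
    let K : Subgroup G :=
      { carrier := {b | ∃ v ∈ U, ∃ t ∈ P.B ⊓ P.N, b = v * t}
        one_mem' := ⟨1, one_mem _, 1, one_mem _, by group⟩
        mul_mem' := by
          rintro _ _ ⟨v, hv, t, ht, rfl⟩ ⟨v', hv', t', ht', rfl⟩
          exact ⟨v * (t * v' * t⁻¹), mul_mem hv (hUc t ht.1 v' hv'), t * t', mul_mem ht ht', by group⟩
        inv_mem' := by
          rintro _ ⟨v, hv, t, ht, rfl⟩
          refine ⟨t⁻¹ * v⁻¹ * t⁻¹⁻¹, hUc _ (inv_mem ht.1) _ (inv_mem hv), t⁻¹, inv_mem ht, by group⟩ }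
    have hK : P.B ≤ K := by
      rw [← hsplit, sup_le_iff]
      exact ⟨fun v hv => ⟨v, hv, 1, one_mem _, by group⟩, fun t ht => ⟨1, one_mem _, t, ht, by group⟩⟩
    exact fun b hb => hK hb
  have heven : Even (Nat.card G) := by
    by_contra hodd
    rw [Nat.not_even_iff_odd] at hodd
    apply hsB
    have h1 : (s * s) ^ Nat.card ↥(P.B ⊓ P.N) = 1 := by
      have h2 : (⟨s * s, hs2, mul_mem hsN hsN⟩ : ↥(P.B ⊓ P.N)) ^ Nat.card ↥(P.B ⊓ P.N) = 1 := pow_card_eq_one'
      exact congrArg Subtype.val h2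
    have h3 : s ^ Nat.card ↥(P.B ⊓ P.N) = 1 := by
      apply El2.eq_one_of_odd (El2.of_sq _) (Odd.of_dvd_nat hodd (orderOf_dvd_natCard _))
      rw [← pow_two, ← pow_mul, mul_comm, pow_mul, pow_two, h1]
    obtain ⟨k, hk⟩ := hH
    have h4 : s = ((s * s) ^ k)⁻¹ := by
      rw [eq_comm, inv_eq_iff_mul_eq_one, ← pow_two, ← pow_mul, ← pow_succ, ← hk, h3]
    rw [h4]
    exact inv_mem (pow_mem hs2 k)
  have D : SplitH U (P.B ⊓ P.N) ((1 : G) : G ⧸ P.B) ((s : G) : G ⧸ P.B) := by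
    refine ⟨?_, ?_, ?_, ?_, hUnil, ?_, ?_, hH, ?_, ?_, hind, heven⟩
    · intro h
      rw [QuotientGroup.eq, inv_one, one_mul] at h
      exact hsB h
    · intro v hv
      rw [mk_smul_iff]; exact hUB hv
    · intro t ht
      rw [mk_smul_iff]; exact ht.1
    · intro b hb v hv
      rw [mk_smul_iff] at hb
      exact hUc b hb v hv
    · intro b hb
      rw [mk_smul_iff] at hb
      exact hUT b hb
    · intro t ht htU
      have : t ∈ U ⊓ P.N := ⟨htU, ht.2⟩
      rw [hdisj, Subgroup.mem_bot] at this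
      exact this
    · intro γ hγ
      obtain ⟨g, rfl⟩ := QuotientGroup.mk_surjective γ
      have hg : g ∉ P.B := by
        intro hg
        apply hγ
        rw [QuotientGroup.eq, mul_one]
        exact inv_mem hg
      obtain ⟨b, hb, b', hb', rfl⟩ := bruhat P hS g hg
      obtain ⟨v, hv, t, ht, rfl⟩ := hUT b hb
      refine ⟨v, hv, ?_⟩
      show ((v * t * s * b' : G) : G ⧸ P.B) = ((v * s : G) : G ⧸ P.B)
      rw [QuotientGroup.eq]
      have h1 := P.conj_mem s⁻¹ (inv_mem hsN) t⁻¹ (inv_mem ht)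
      have e : (v * t * s * b')⁻¹ * (v * s) = b'⁻¹ * (s⁻¹ * t⁻¹ * s⁻¹⁻¹) := by group
      rw [e]
      exact mul_mem (inv_mem hb') h1
    · intro γ
      obtain ⟨g, rfl⟩ := QuotientGroup.mk_surjective γ
      exact ⟨g, by show ((g * 1 : G) : G ⧸ P.B) = _; rw [mul_one]⟩
  have hfaith : FaithfulSMul G (G ⧸ P.B) := by
    have hn : (MulAction.toPermHom G (G ⧸ P.B)).ker.Normal := inferInstance
    rcases hn.eq_bot_or_eq_top with h1 | h1
    · constructor
      intro g g' h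
      have h2 : g⁻¹ * g' ∈ (MulAction.toPermHom G (G ⧸ P.B)).ker := by
        rw [MonoidHom.mem_ker]
        ext γ
        show (g⁻¹ * g') • γ = γ
        rw [mul_smul, ← h γ, inv_smul_smul]
      rw [h1, Subgroup.mem_bot] at h2
      exact inv_mul_eq_one.1 h2
    · exfalso
      apply hsB
      have h2 : s ∈ (MulAction.toPermHom G (G ⧸ P.B)).ker := by rw [h1]; exact Subgroup.mem_top s
      rw [MonoidHom.mem_ker] at h2
      rw [← mk_smul_iff s]
      have h3 := congrArg (fun f => f ((1 : G) : G ⧸ P.B)) h2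
      exact h3
  have hR := D.main hna hBS
  refine ⟨⟨?_, ?_, ?_⟩, hna⟩
  · intro h
    apply hsB; rw [h]; exact Subgroup.mem_top s
  · by_contra hodd
    rw [Nat.not_even_iff_odd] at hodd
    have h1 := P.B.card_mul_index
    have h2 : Odd (Nat.card G) := by rw [← h1]; exact hodd.mul hind
    exact (Nat.not_even_iff_odd.2 h2) heven
  · intro g hg
    by_contra hodd
    rw [Nat.not_odd_iff_even, even_iff_two_dvd] at hodd
    have := Fact.mk Nat.prime_two
    obtain ⟨x, hx⟩ := exists_prime_orderOf_dvd_card' 2 hodd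
    have hx2 : x.1 * x.1 = 1 := by
      have h1 : x * x = 1 := by rw [← pow_two, ← hx, pow_orderOf_eq_one]
      exact congrArg Subtype.val h1
    have hx1 : x.1 ≠ 1 := by
      intro e
      have h1 : x = 1 := Subtype.ext e
      rw [h1, orderOf_one] at hx
      omega
    have h1 : x.1 • ((1 : G) : G ⧸ P.B) = ((1 : G) : G ⧸ P.B) := (mk_smul_iff _).2 x.2.1
    have h2 : x.1 • (g • ((1 : G) : G ⧸ P.B)) = g • ((1 : G) : G ⧸ P.B) := by
      obtain ⟨b, hb, hbx⟩ := x.2.2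
      have h3 : g * b * g⁻¹ = x.1 := hbx
      rw [← h3, mul_smul, mul_smul, inv_smul_smul, (mk_smul_iff b).2 hb]
    have h3 : ((1 : G) : G ⧸ P.B) ≠ g • ((1 : G) : G ⧸ P.B) := fun e => hg ((mk_smul_iff g).1 e.symm)
    obtain ⟨c, hc, hc'⟩ := D.cfg.two _ _ _ _ h3 D.hob
    have h4 : c * x.1 * c⁻¹ ∈ PP G ((1 : G) : G ⧸ P.B) ⊓ PP G ((s : G) : G ⧸ P.B) := by
      refine ⟨mem_PP_of ?_ ((El2.of_sq hx2).conj c), mem_PP_of ?_ ((El2.of_sq hx2).conj c)⟩
      · rw [mul_smul, mul_smul]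
        have : c⁻¹ • ((1 : G) : G ⧸ P.B) = ((1 : G) : G ⧸ P.B) := by rw [inv_smul_eq_iff, hc]
        rw [this, h1, hc]
      · rw [mul_smul, mul_smul]
        have : c⁻¹ • ((s : G) : G ⧸ P.B) = g • ((1 : G) : G ⧸ P.B) := by rw [inv_smul_eq_iff, hc']
        rw [this, h2, hc']
    rw [hR, Subgroup.mem_bot] at h4
    apply hx1
    have : x.1 = c⁻¹ * (c * x.1 * c⁻¹) * c := by group
    rw [this, h4]; group

end Cfsg.Agent.H27.SB
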